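import Cfsg.Agent.Mod.DadeBimod
import Cfsg.Agent.Mod.Reduce
import Cfsg.Agent.CT.Forms
import Cfsg.Agent.CT.Triple
import Cfsg.Agent.CT.Glauberman
import Cfsg.Agent.Blk.Basic

/-! Dade's theorem: extendibility passes to the Glauberman correspondent. -/

set_option autoImplicit false

namespace Cfsg

open Module Matrix ComplexConjugate

universe u v w

variable {p : ℕ} {M : Ideal AlgInt}

section redrep
variable {G : Type u} [Group G] {ι : Type w} [Fintype ι] [DecidableEq ι]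

theorem matrix_orth_complex [Fintype G] {X : G →* Matrix ι ι ℂ}
    (h : IsIrrCharacter G (fun g => (X g).trace)) (i j k l : ι) :
    (Fintype.card ι : ℂ) * ∑ g, X g i j * X g⁻¹ k l =
      if j = k ∧ i = l then (Fintype.card G : ℂ) else 0 := by
  obtain ⟨c, hc⟩ := matrix_schur_scalar h (T := ∑ g, X g * Matrix.single j k (1 : ℂ) * X g⁻¹)
    fun g => by
      rw [Finset.sum_mul, Finset.mul_sum]
      exact (Fintype.sum_equiv (Equiv.mulLeft g) _ _ fun x => by
        simp [mul_assoc, matrix_rep_inv_mul]).symm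
  have h1 := congrArg Matrix.trace hc
  rw [Matrix.trace_sum, Finset.sum_congr rfl fun g _ => by
    rw [Matrix.trace_mul_cycle, ← map_mul, inv_mul_cancel, map_one, one_mul]] at h1
  have h2 := congrFun (congrFun hc i) l
  simp only [Matrix.sum_apply, Matrix.mul_apply, Matrix.single_apply, ite_and, mul_ite, mul_one,
    mul_zero, Finset.sum_ite_eq, Finset.mem_univ, if_true, ite_mul, zero_mul] at h2
  rw [h2]
  by_cases hjk : j = k
  · subst hjk
    by_cases hil : i = l <;> simp_all [mul_comm]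
  · rw [Matrix.trace_single_eq_of_ne _ _ _ hjk, Finset.sum_const_zero, Matrix.trace_smul,
      Matrix.trace_one, smul_eq_mul, mul_comm] at h1
    by_cases hil : i = l <;> simp [hil, hjk, ← h1]

/-- `r` is the reduction of an integral matrix representation affording `χ` -/
def IsRedRep (M : Ideal AlgInt) (χ : G → ℂ) (r : G →* Matrix ι ι (resK M)) : Prop :=
  ∃ X : G →* Matrix ι ι (valO M), (∀ g, ((X g).trace : ℂ) = χ g) ∧
    ∀ g, r g = (X g).map (IsLocalRing.residue (valO M))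

theorem IsCharacter.exists_isRedRep [Finite G] {χ : G → ℂ} (hχ : IsCharacter G χ)
    (M : Ideal AlgInt) : ∃ r : G →* Matrix (Fin (charDegree χ)) (Fin (charDegree χ)) (resK M),
      IsRedRep M χ r := by
  obtain ⟨X, hX⟩ := hχ.exists_matrix_valO M
  exact ⟨((IsLocalRing.residue (valO M)).mapMatrix : Matrix _ _ _ →+* _).toMonoidHom.comp X,
    X, hX, fun _ => rfl⟩

variable {χ : G → ℂ} {r : G →* Matrix ι ι (resK M)}

theorem IsRedRep.comp (h : IsRedRep M χ r) {H : Type v} [Group H] (f : H →* G) :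
    IsRedRep M (fun x => χ (f x)) (r.comp f) := by
  obtain ⟨X, h1, h2⟩ := h
  exact ⟨X.comp f, fun g => h1 _, fun g => h2 _⟩

theorem IsRedRep.trace (h : IsRedRep M χ r) (g : G) : (r g).trace = red M (χ g) := by
  obtain ⟨X, h1, h2⟩ := h
  rw [h2, ← h1, red_coe, AddMonoidHom.map_trace]

theorem IsRedRep.orth [Fintype G] (h : IsRedRep M χ r) (hχ : IsIrrCharacter G χ) (i j k l : ι) :
    (Fintype.card ι : resK M) * ∑ g, r g i j * r g⁻¹ k l =
      if j = k ∧ i = l then (Fintype.card G : resK M) else 0 := by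
  obtain ⟨X, h1, h2⟩ := h
  have h3 := matrix_orth_complex (X := ((valO M).subtype.mapMatrix : Matrix _ _ _ →+* _).toMonoidHom.comp X)
    (by
      convert hχ using 2 with g
      rw [← h1]
      exact (AddMonoidHom.map_trace (valO M).subtype _).symm) i j k l
  have h4 : (Fintype.card ι : valO M) * ∑ g, X g i j * X g⁻¹ k l =
      if j = k ∧ i = l then (Fintype.card G : valO M) else 0 := by
    apply (valO M).subtype_injective
    rw [map_mul, map_sum, apply_ite (valO M).subtype, map_natCast, map_natCast, map_zero, ← h3]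
    rfl
  have h5 := congrArg (IsLocalRing.residue (valO M)) h4
  rw [map_mul, map_sum, apply_ite (IsLocalRing.residue (valO M)), map_natCast, map_natCast,
    map_zero] at h5
  simpa [h2] using h5

variable [Fintype G]

theorem IsRedRep.card_ne_zero (hM : IsPModular p M) (h : IsRedRep M χ r) (hχ : IsIrrCharacter G χ)
    (hG : ¬ p ∣ Fintype.card G) : (Fintype.card ι : resK M) ≠ 0 := by
  haveI := hM.charP
  have h1 := h.trace 1
  rw [map_one, Matrix.trace_one, hχ.isCharacter.one_eq_charDegree, red_natCast] at h1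
  rw [h1, Ne, CharP.cast_eq_zero_iff (resK M) p]
  exact fun h2 => hG (Nat.card_eq_fintype_card (α := G) ▸
    h2.trans (IrrCharacter.charDegree_dvd_card ⟨χ, hχ⟩))

theorem IsRedRep.schur (hM : IsPModular p M) (h : IsRedRep M χ r) (hχ : IsIrrCharacter G χ)
    (hG : ¬ p ∣ Fintype.card G) (y : Matrix ι ι (resK M)) :
    ∃ t : resK M, ∑ g, r g * y * r g⁻¹ = t • 1 := by
  have h0 := h.card_ne_zero hM hχ hG
  refine ⟨(Fintype.card ι : resK M)⁻¹ * (Fintype.card G * y.trace), ?_⟩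
  ext i l
  apply mul_left_cancel₀ h0
  have : (Fintype.card ι : resK M) * ∑ g, ∑ k, (∑ j, r g i j * y j k) * r g⁻¹ k l =
      ∑ j, ∑ k, y j k * ((Fintype.card ι : resK M) * ∑ g, r g i j * r g⁻¹ k l) := by
    simp only [Finset.sum_mul, Finset.mul_sum]
    rw [Finset.sum_comm]
    conv_rhs => rw [Finset.sum_comm]
    refine Finset.sum_congr rfl fun k _ => ?_
    rw [Finset.sum_comm]
    exact Finset.sum_congr rfl fun j _ => Finset.sum_congr rfl fun g _ => by ring
  simp only [Matrix.sum_apply, Matrix.mul_apply, this, h.orth hχ]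
  by_cases hil : i = l
  · simp [hil, Matrix.trace, h0, ← Finset.sum_mul, mul_comm (Fintype.card G : resK M)]
  · simp [hil]

theorem IsRedRep.fourier (hM : IsPModular p M) (h : IsRedRep M χ r) (hχ : IsIrrCharacter G χ)
    (hG : ¬ p ∣ Fintype.card G) (z : Matrix ι ι (resK M)) :
    ∑ g, (z * (((Fintype.card G : resK M)⁻¹ * Fintype.card ι) • r g⁻¹)).trace • r g = z := by
  haveI := hM.charP
  have h0 : (Fintype.card G : resK M) ≠ 0 := by rwa [Ne, CharP.cast_eq_zero_iff (resK M) p]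
  ext i j
  have : ∑ g, ((Fintype.card G : resK M)⁻¹ * Fintype.card ι * ∑ l, ∑ k, z l k * r g⁻¹ k l) *
      r g i j = (Fintype.card G : resK M)⁻¹ * ∑ l, ∑ k, z l k *
        (Fintype.card ι * ∑ g, r g i j * r g⁻¹ k l) := by
    simp only [Finset.sum_mul, Finset.mul_sum]
    rw [Finset.sum_comm]
    refine Finset.sum_congr rfl fun k _ => ?_
    rw [Finset.sum_comm]
    exact Finset.sum_congr rfl fun j _ => Finset.sum_congr rfl fun g _ => by ring
  simp only [Matrix.sum_apply, Matrix.mul_smul, Matrix.smul_apply, smul_eq_mul,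
    Matrix.trace, Matrix.diag_apply, Matrix.mul_apply]
  simp only [← Finset.mul_sum, this, h.orth hχ]
  simp [ite_and, h0, mul_comm]

theorem IsRedRep.eq_of_trace (hM : IsPModular p M) (h : IsRedRep M χ r) (hχ : IsIrrCharacter G χ)
    (hG : ¬ p ∣ Fintype.card G) {z z' : Matrix ι ι (resK M)}
    (hz : ∀ g, (z * r g).trace = (z' * r g).trace) : z = z' := by
  rw [← h.fourier hM hχ hG z, ← h.fourier hM hχ hG z']
  simp only [Matrix.mul_smul, Matrix.trace_smul, hz]

end redrep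

theorem IsPModular.eq_of_red_eq_of_pow (hM : IsPModular p M) {z w : ℂ} {n : ℕ} (hn : ¬ p ∣ n)
    (hz : z ^ n = 1) (hw : w ^ n = 1) (h : red M z = red M w) : z = w := by
  have hn0 : n ≠ 0 := fun h => hn (h ▸ dvd_zero p)
  have h1 := valM_eq_one_of_pow_eq_one (M := M) hn0 hw
  have hw0 : w ≠ 0 := fun h => by simp [h, hn0] at hw
  rw [← div_eq_one_iff_eq hw0]
  refine hM.eq_one_of_red_eq_one hn (by rw [div_pow, hz, hw, div_one]) ?_
  rw [red_div (mem_valO_iff.2 (valM_eq_one_of_pow_eq_one hn0 hz).le) h1, h,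
    div_self (red_ne_zero_iff.2 h1)]

theorem IsPModular.exists_lift_unitsHom (hM : IsPModular p M) {E : Type u} [Group E] [Finite E]
    (μ : E →* (resK M)ˣ) : ∃ (n : ℕ) (ν : E →* ℂˣ), ¬ p ∣ n ∧ (∀ e, (ν e : ℂ) ^ n = 1) ∧
      ∀ e, red M (ν e) = μ e := by
  haveI := hM.charP
  haveI : Fact p.Prime := ⟨hM.prime⟩
  obtain ⟨a, n, hn, h⟩ := Nat.exists_eq_pow_mul_and_not_dvd (Nat.card_pos (α := E)).ne' p
    hM.prime.ne_one
  have hn0 : n ≠ 0 := fun h => hn (h ▸ dvd_zero p)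
  have h1 : ∀ e, (μ e : resK M) ^ n = 1 := fun e => by
    have : ((μ e : resK M) ^ n - 1) ^ p ^ a = 0 := by
      rw [sub_pow_char_pow, ← pow_mul, mul_comm, ← h, ← Units.val_pow_eq_pow_val, ← map_pow,
        pow_card_eq_one', map_one, one_pow, Units.val_one, sub_self]
    exact sub_eq_zero.1 (pow_eq_zero_iff (pow_ne_zero _ hM.prime.ne_zero) |>.1 this)
  choose ν hν hν' using fun e => hM.exists_lift_rootOfUnity hn (h1 e)
  have hm : ∀ e, ν e ∈ valO M := fun e =>
    mem_valO_iff.2 (valM_eq_one_of_pow_eq_one hn0 (hν e)).le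
  refine ⟨n, MonoidHom.toHomUnits ⟨⟨ν, ?_⟩, fun e f => ?_⟩, hn, hν, hν'⟩
  · exact hM.eq_of_red_eq_of_pow hn (hν 1) (one_pow _) (by rw [hν', map_one, red_one]; rfl)
  · exact hM.eq_of_red_eq_of_pow hn (hν _) (by rw [mul_pow, hν, hν, mul_one])
      (by rw [red_mul (hm e) (hm f), hν', hν', hν', map_mul]; rfl)

section dade
variable {Γ : Type u} [Group Γ] [Finite Γ] {N P : Subgroup Γ} [N.Normal] {τ : Γ → ℂ}
  {H : Type u} [Group H] [Finite H] {j : H →* Γ} {C : Subgroup H}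

omit [Finite Γ] [Finite H] in
theorem normal_of_comap_cen (hjP : ∀ h, j h ∈ Subgroup.normalizer (P : Set Γ))
    (hC : ∀ x, x ∈ C ↔ j x ∈ N ∧ j x ∈ Subgroup.centralizer (P : Set Γ)) : C.Normal :=
  ⟨fun x hx h => by
    rw [hC] at hx ⊢
    rw [map_mul, map_mul, map_inv]
    exact ⟨Subgroup.Normal.conj_mem inferInstance _ hx.1 _, (Subgroup.mem_normalizer_iff.1
      (normalizer_le_normalizer_centralizer' P (hjP h)) _).1 hx.2⟩⟩

omit [Finite H] in
theorem exists_glCorr_comap (hp : p.Prime) (hN : ¬ p ∣ Nat.card N) {θ : IrrCharacter N}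
    (hP : IsPGroup p P) (hθ : P ≤ charInertia θ.1)
    (hjC : ∀ x ∈ N, x ∈ Subgroup.centralizer (P : Set Γ) → x ∈ j.range)
    (hC : ∀ x, x ∈ C ↔ j x ∈ N ∧ j x ∈ Subgroup.centralizer (P : Set Γ)) :
    ∃ β : IrrCharacter C, GlCorr p ((j.comp C.subtype).codRestrict N fun c => ((hC _).1 c.2).1)
      θ.1 β.1 := by
  haveI : Fact p.Prime := ⟨hp⟩
  have hb := glBij_of_isPGroup hp hP (G := N) (C := N ⊓ Subgroup.centralizer (P : Set Γ))
    (by rw [Subgroup.normalizer_eq_top]; exact le_top) (coprime_card_of_isPGroup hP hN).symm rfl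
    inf_le_left
  obtain ⟨β, -, hβ⟩ := hb.ex θ fun s hs => mem_charInertia_iff_charInv.1 (hθ hs)
  let e : C →* ↥(N ⊓ Subgroup.centralizer (P : Set Γ)) :=
    (j.comp C.subtype).codRestrict _ fun c => (hC _).1 c.2
  have he : Function.Surjective e := fun x => by
    obtain ⟨h, hh⟩ := hjC x.1 x.2.1 x.2.2
    exact ⟨⟨h, (hC _).2 (hh ▸ x.2)⟩, Subtype.ext hh⟩
  exact ⟨β.comap e he, hβ.trans (glCorr_of_eq p (f := e) fun _ => rfl)⟩

omit [N.Normal] in
theorem IsRedRep.eq_one_of_centralizer (hM : IsPModular p M) {ι : Type w} [Fintype ι]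
    [DecidableEq ι] {r : Γ →* Matrix ι ι (resK M)} (hr : IsRedRep M τ r) (hN : ¬ p ∣ Nat.card N)
    (hirr : IsIrrCharacter N (fun n => τ n)) (hP : IsPGroup p P) {u : Γ} (hu : u ∈ P)
    (hc : u ∈ Subgroup.centralizer (N : Set Γ)) : r u = 1 := by
  haveI : Fact p.Prime := ⟨hM.prime⟩
  haveI := hM.charP
  haveI := Fintype.ofFinite N
  have hN' : ¬ p ∣ Fintype.card N := by rwa [← Nat.card_eq_fintype_card]
  have hrN := hr.comp N.subtype
  obtain ⟨t, ht⟩ := hrN.schur hM hirr hN' (r u)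
  have h0 : (Fintype.card N : resK M) ≠ 0 := by rwa [Ne, CharP.cast_eq_zero_iff (resK M) p]
  rw [Finset.sum_congr rfl (g := fun _ => r u) fun g _ => by
    change r g * r u * r (g : Γ)⁻¹ = _
    rw [← map_mul, ← map_mul, Subgroup.mem_centralizer_iff.1 hc g g.2, mul_inv_cancel_right],
    Finset.sum_const, Finset.card_univ, ← Nat.cast_smul_eq_nsmul (resK M),
    ← eq_inv_smul_iff₀ h0, smul_smul, ← Algebra.algebraMap_eq_smul_one] at ht
  obtain ⟨a, ha⟩ := hP ⟨u, hu⟩
  have h1 : (r u - 1) ^ p ^ a = 0 := by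
    rw [ht, ← map_one (algebraMap (resK M) _), ← map_sub, ← map_pow, sub_pow_char_pow, map_sub,
      map_pow, ← ht, ← map_pow, show u ^ p ^ a = 1 from congrArg Subtype.val ha]
    simp
  rw [ht, ← map_one (algebraMap (resK M) _), ← map_sub, ← map_pow] at h1
  have h2 := hrN.card_ne_zero hM hirr hN'
  haveI : Nonempty ι := Fintype.card_pos_iff.1
    (Nat.pos_of_ne_zero fun h => h2 (by rw [h, Nat.cast_zero]))
  have h3 := (algebraMap (resK M) _).injective (h1.trans (map_zero _).symm)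
  rw [ht, sub_eq_zero.1 (pow_eq_zero_iff (pow_ne_zero _ hM.prime.ne_zero) |>.1 h3), map_one]

theorem exists_hom_of_normal [Fact p.Prime] {k : Type*} [Field k] [CharP k p] {n n' : Type*}
    [Fintype n] [Fintype n'] [DecidableEq n] [DecidableEq n'] [Fintype N] (r : Γ →* Matrix n n k)
    (c₀ : k) (hB : ∀ z : Matrix n n k, ∑ x : N, (z * (c₀ • r (x : Γ)⁻¹)).trace • r x = z)
    (hab : ∀ u ∈ P, ∀ v ∈ P, u * v = v * u)
    (hexp : ∀ u ∈ P, u ^ p ∈ Subgroup.centralizer (N : Set Γ))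
    (hr1 : ∀ u ∈ P, u ∈ Subgroup.centralizer (N : Set Γ) → r u = 1) {E : Type*} [Group E]
    [Fintype E] (f : E →* Γ) (hfP : ∀ e, f e ∈ Subgroup.normalizer (P : Set Γ))
    (r' : E →* Matrix n' n' k) (C : Subgroup E) [C.Normal] [Fintype C] (hC : ¬ p ∣ Fintype.card C)
    (hCP : ∀ c ∈ C, f c ∈ Subgroup.centralizer (P : Set Γ))
    (hfC : ∀ x ∈ N, x ∈ Subgroup.centralizer (P : Set Γ) → ∃ c ∈ C, f c = x)
    (hschur : ∀ y, ∃ t : k, ∑ c : C, r' c * y * r' (c : E)⁻¹ = t • 1)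
    (htr : ∑ c : C, (r (f c)).trace * (r' (c : E)⁻¹).trace ≠ 0) :
    ∃ μ : E →* kˣ, (∀ c ∈ C, μ c = 1) ∧
      ∀ e (b : k), f e = 1 → r' e⁻¹ = b • 1 → (μ e : k) = b := by
  let κ : Γ →* MulAut N := MulAut.conjNormal
  have hκ : ∀ u, κ u = 1 ↔ u ∈ Subgroup.centralizer (N : Set Γ) := fun u => by
    simp only [κ, MulEquiv.ext_iff, Subtype.ext_iff, Subgroup.mem_centralizer_iff,
      MulAut.conjNormal_apply, mul_inv_eq_iff_eq_mul, MulAut.one_apply, Subtype.forall,
      SetLike.mem_coe]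
    exact forall₂_congr fun _ _ => eq_comm
  let A := P.map κ
  letI : CommGroup A := { (inferInstance : Group A) with
    mul_comm := by
      rintro ⟨_, u, hu, rfl⟩ ⟨_, v, hv, rfl⟩
      exact Subtype.ext (by change κ u * κ v = κ v * κ u; rw [← map_mul, hab u hu v hv, map_mul]) }
  haveI := Fintype.ofFinite A
  choose l hl hl' using fun a : A => a.2
  have hrl : ∀ (a : A), ∀ u ∈ P, κ u = a → r (l a) = r u := fun a u hu h => by
    have := hr1 (u⁻¹ * l a) (P.mul_mem (P.inv_mem hu) (hl a))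
      ((hκ _).1 (by rw [map_mul, map_inv, h, hl', inv_mul_cancel]))
    rw [← mul_inv_cancel_left u (l a), map_mul, this, mul_one]
  let s : A →* Matrix _ _ k :=
    { toFun := fun a => r (l a)
      map_one' := by rw [hrl 1 1 P.one_mem (map_one _), map_one]
      map_mul' := fun a b => by
        rw [hrl (a * b) (l a * l b) (P.mul_mem (hl a) (hl b)) (by rw [map_mul, hl', hl']; rfl),
          map_mul] }
  have hs : ∀ a, s a = r (l a) := fun _ => rfl
  have hs' : ∀ a, s a⁻¹ = r (l a)⁻¹ := fun a =>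
    hrl _ _ (P.inv_mem (hl a)) (by rw [map_inv, hl']; rfl)
  have hsm : ∀ (a : A) (x : N), ((a • x : N) : Γ) = l a * x * (l a)⁻¹ := fun a x => by
    change ((a.1 x : N) : Γ) = _
    rw [← hl']
    rfl
  let ψ : E →* MulAut A := A.normalizerMonoidHom.comp
    ((κ.comp f).codRestrict _ fun e => Subgroup.le_normalizer_map κ ⟨_, hfP _, rfl⟩)
  have hψ : ∀ e a, ((ψ e a : A) : MulAut N) = κ (f e * l a * (f e)⁻¹) := fun e a => by
    rw [map_mul, map_mul, map_inv, hl']
    rfl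
  have hψ1 : ∀ e, f e ∈ Subgroup.centralizer (P : Set Γ) → ψ e = 1 := fun e he => by
    ext a : 2
    rw [hψ, ← Subgroup.mem_centralizer_iff.1 he _ (hl a), mul_inv_cancel_right, hl']
    rfl
  obtain ⟨μ, hμ1, hμ2⟩ := exists_hom_of_bimodule (p := p) (A := A) (fun a => Subtype.ext (by
      change a.1 ^ p = 1
      rw [← hl', ← map_pow, hκ]
      exact hexp _ (hl a))) (X := N) (fun x => r x) (fun x => c₀ • r (x : Γ)⁻¹) hB s
    (fun a x => by rw [hsm, hs, hs', map_mul, map_mul])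
    (fun a x => by
      rw [hsm, hs, hs', Matrix.mul_smul, Matrix.smul_mul, ← map_mul, ← map_mul]
      congr 2
      group) (r.comp f) r' ψ
    (fun e a => by
      rw [hs, hs, hrl (ψ e a) _ ((Subgroup.mem_normalizer_iff.1 (hfP e) _).1 (hl a))
        (hψ e a).symm]
      change r (f e) * r (l a) = r (f e * l a * (f e)⁻¹) * r (f e)
      rw [← map_mul, ← map_mul, inv_mul_cancel_right]) C hC (fun c hc => hψ1 c (hCP c hc))
    (fun x hx => by
      have h1 : (x : Γ) ∈ Subgroup.centralizer (P : Set Γ) := fun u hu => by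
        have h2 : ((κ u x : N) : Γ) = x := congrArg Subtype.val (hx ⟨κ u, u, hu, rfl⟩)
        exact mul_inv_eq_iff_eq_mul.1 h2
      obtain ⟨c, hc, h⟩ := hfC x x.2 h1
      exact ⟨c, hc, congrArg r h.symm⟩) hschur htr
  exact ⟨μ, hμ1, fun e b h1 h2 => hμ2 e b (hψ1 _ (h1 ▸ Subgroup.one_mem _))
    (by rw [MonoidHom.comp_apply, h1, map_one]) h2⟩

theorem dade_base (hM : IsPModular p M) (hN : ¬ p ∣ Nat.card N) (hτ : IsCharacter Γ τ)
    (hirr : IsIrrCharacter N (fun n => τ n)) (hP : IsPGroup p P)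
    (hab : ∀ u ∈ P, ∀ v ∈ P, u * v = v * u)
    (hexp : ∀ u ∈ P, u ^ p ∈ Subgroup.centralizer (N : Set Γ)) (hj : Function.Injective j)
    (hjP : ∀ h, j h ∈ Subgroup.normalizer (P : Set Γ))
    (hjC : ∀ x ∈ N, x ∈ Subgroup.centralizer (P : Set Γ) → x ∈ j.range)
    (hC : ∀ x, x ∈ C ↔ j x ∈ N ∧ j x ∈ Subgroup.centralizer (P : Set Γ)) :
    ∃ τ' : H → ℂ, IsCharacter H τ' ∧ IsIrrCharacter C (fun c => τ' c) ∧
      GlCorr p (j.comp C.subtype) τ (fun c => τ' c) := by
  classical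
  haveI : Fact p.Prime := ⟨hM.prime⟩
  haveI := hM.charP
  haveI := normal_of_comap_cen hjP hC
  obtain ⟨β, hβ⟩ := exists_glCorr_comap hM.prime hN (θ := ⟨_, hirr⟩) hP
    (by rw [charInertia_eq_top_of_extends hτ.isClassFunction fun _ => rfl]; exact le_top) hjC hC
  replace hβ : GlCorr p (j.comp C.subtype) τ β.1 := hβ
  have hinv : charInertia β.1 = ⊤ := eq_top_iff.2 fun h _ => by
    have h1 := GlCorr.smul (χ := ⟨τ, hτ.isIrr_of_comp N.subtype hirr⟩) hβ (α := MulAut.conj (j h))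
      (α' := MulAut.conjNormal (H := C) h) fun c => by simp
    have h2 : GlCorr p (j.comp C.subtype) τ (MulAut.conjNormal (H := C) h • β).1 := by
      convert h1 using 1
      funext x
      rw [IrrCharacter.mulAut_smul_apply]
      simpa using (hτ.isClassFunction x (j h)⁻¹).symm
    exact IrrCharacter.mem_charInertia_iff.2 (hβ.unique hM.prime h2)
  obtain ⟨T⟩ := nonempty_tripleIso hinv
  suffices h : ∃ μ : T.E →* ℂˣ, ∀ z : T.ϖ.ker, μ z = T.lam z by
    obtain ⟨χ, hχ⟩ := T.exists_extension_iff.2 h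
    have : (fun c : C => χ.1 c) = β.1 := funext hχ
    exact ⟨χ.1, χ.isCharacter, this ▸ β.2, this ▸ hβ⟩
  have hCp : ¬ p ∣ Nat.card C := fun h => hN (h.trans (Subgroup.card_dvd_of_injective
    ((j.comp C.subtype).codRestrict N fun c => ((hC _).1 c.2).1) fun a b h =>
      Subtype.ext (hj (congrArg Subtype.val h))))
  obtain ⟨r, hr⟩ := hτ.exists_isRedRep M
  obtain ⟨r', hr'⟩ := T.τ_isCharacter.exists_isRedRep M
  haveI := Fintype.ofFinite N
  haveI := Fintype.ofFinite C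
  haveI := Fintype.ofFinite (tripleFib C T.ϖ)
  haveI := Fintype.ofFinite (tripleFibSnd T.ϖ).ker
  have hN' : ¬ p ∣ Fintype.card N := by rwa [← Nat.card_eq_fintype_card]
  have hcard : Fintype.card (tripleFibSnd T.ϖ).ker = Nat.card C := by
    rw [← Nat.card_eq_fintype_card, Nat.card_congr (tripleFibKerEquiv T.ϖ).toEquiv]
  have hC' : ¬ p ∣ Fintype.card (tripleFibSnd T.ϖ).ker := by rwa [hcard]
  have hrC := hr'.comp (tripleFibSnd T.ϖ).ker.subtype
  let f : tripleFib C T.ϖ →* Γ := j.comp (tripleFibFst T.ϖ)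
  obtain ⟨μ, hμ1, hμ2⟩ := exists_hom_of_normal (p := p) (N := N) r
    ((Fintype.card N : resK M)⁻¹ * Fintype.card (Fin (charDegree τ))) (fun z => by
      simpa only [MonoidHom.comp_apply, Subgroup.coe_subtype, Subgroup.coe_inv] using
        (hr.comp N.subtype).fourier hM hirr hN' z)
    hab hexp (fun u hu => hr.eq_one_of_centralizer hM hN hirr hP hu) f (fun e => hjP _) r'
    (tripleFibSnd T.ϖ).ker hC'
    (fun c hc => ((hC _).1 (fst_mem_of_mem_ker_tripleFibSnd ⟨c, hc⟩)).2)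
    (fun x hx h1 => by
      obtain ⟨h, hh⟩ := hjC x hx h1
      exact ⟨⟨(h, 1), coe_one_mem_tripleFib T.ϖ ⟨h, (hC _).2 (hh ▸ ⟨hx, h1⟩)⟩⟩, rfl, hh⟩)
    (fun y => by
      simpa only [MonoidHom.comp_apply, Subgroup.coe_subtype, Subgroup.coe_inv] using
        hrC.schur hM T.isIrr_τ_ker hC' y)
    (by
      obtain ⟨m, hm, hpm, -⟩ := hβ.exists_nat hM.prime hτ
      have h0 : (Nat.card C : ℂ) ≠ 0 := Nat.cast_ne_zero.2 Nat.card_pos.ne'
      rw [classInner, inv_mul_eq_iff_eq_mul₀ h0, ← Nat.cast_mul] at hm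
      have h1 : ∑ c : (tripleFibSnd T.ϖ).ker, τ (f c) * T.τ (c : tripleFib C T.ϖ)⁻¹ =
          (Nat.card C * m : ℕ) := by
        rw [← hm]
        refine (Fintype.sum_equiv (tripleFibKerEquiv T.ϖ).symm.toEquiv _ _ fun c => ?_).symm
        rw [← β.apply_inv, ← T.τ_coe_one]
        congr 2
        exact Subtype.ext (Prod.ext rfl inv_one.symm)
      simp only [hr.trace, hr'.trace]
      rw [Finset.sum_congr rfl fun c _ => (red_mul (hτ.mem_valO _) (T.τ_isCharacter.mem_valO _)).symm,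
        ← red_sum _ fun c _ => mul_mem (hτ.mem_valO _) (T.τ_isCharacter.mem_valO _), h1,
        red_natCast, Ne, CharP.cast_eq_zero_iff (resK M) p]
      exact hM.prime.not_dvd_mul hCp hpm)
  obtain ⟨n, ν, hn, hν, hνμ⟩ := hM.exists_lift_unitsHom μ
  have hker : (tripleFibSnd T.ϖ).ker ≤ ν.ker := fun c hc => Units.ext
    (hM.eq_one_of_red_eq_one hn (hν c) (by rw [hνμ, hμ1 c hc]; rfl))
  refine ⟨MonoidHom.liftOfSurjective _ (tripleFibSnd_surjective T.ϖ) ⟨ν, hker⟩, fun z => ?_⟩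
  refine (MonoidHom.liftOfRightInverse_comp_apply (tripleFibSnd T.ϖ) _ _ ⟨ν, hker⟩
    ⟨(1, z), one_coe_mem_tripleFib T.ϖ z⟩).trans (Units.ext ?_)
  have hZ : ¬ p ∣ Nat.card T.ϖ.ker := (Nat.Prime.coprime_iff_not_dvd hM.prime).1
    (T.coprime_card_ker ((Nat.Prime.coprime_iff_not_dvd hM.prime).2 hCp).symm).symm
  have hl1 : (T.lam z : ℂ) ^ Nat.card T.ϖ.ker = 1 := by
    rw [← Units.val_pow_eq_pow_val, ← map_pow, pow_card_eq_one', map_one, Units.val_one]
  refine hM.eq_of_red_eq_of_pow (hM.prime.not_dvd_mul hn hZ) (by rw [pow_mul, hν, one_pow])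
    (by rw [pow_mul', hl1, one_pow]) ?_
  rw [hνμ]
  refine hμ2 _ _ (map_one j) ?_
  refine hrC.eq_of_trace hM T.isIrr_τ_ker hC' fun g => ?_
  have h2 : (⟨(1, z), one_coe_mem_tripleFib T.ϖ z⟩ : tripleFib C T.ϖ)⁻¹ =
      ⟨(1, (z⁻¹ : T.ϖ.ker)), one_coe_mem_tripleFib T.ϖ z⁻¹⟩ := Subtype.ext (Prod.ext inv_one rfl)
  rw [MonoidHom.comp_apply, ← map_mul, Matrix.smul_mul, Matrix.one_mul, Matrix.trace_smul, hr'.trace,
    hr'.trace, h2, T.τ_one_coe_mul, map_inv, inv_inv, red_mul (mem_valO_iff.2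
      (valM_eq_one_of_pow_eq_one Nat.card_pos.ne' hl1).le) (T.τ_isCharacter.mem_valO _), smul_eq_mul]

end dade

/-- Dade: if `θ` extends, then its Glauberman correspondent extends to the normalizer -/
theorem dade_extension (hM : IsPModular p M) {H : Type u} [Group H] [Finite H] {C : Subgroup H}
    (n : ℕ) : ∀ {Γ : Type u} [Group Γ] [Finite Γ] {N P : Subgroup Γ} [N.Normal] {τ : Γ → ℂ}
      {j : H →* Γ}, Nat.card N = n → ¬ p ∣ Nat.card N → IsCharacter Γ τ →
      IsIrrCharacter N (fun n => τ n) → IsPGroup p P → (∀ u ∈ P, ∀ v ∈ P, u * v = v * u) →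
      Function.Injective j → (∀ h, j h ∈ Subgroup.normalizer (P : Set Γ)) →
      (∀ x ∈ N, x ∈ Subgroup.centralizer (P : Set Γ) → x ∈ j.range) →
      (∀ x, x ∈ C ↔ j x ∈ N ∧ j x ∈ Subgroup.centralizer (P : Set Γ)) →
      ∃ τ' : H → ℂ, IsCharacter H τ' ∧ IsIrrCharacter C (fun c => τ' c) ∧
        GlCorr p (j.comp C.subtype) τ (fun c => τ' c) := by
  induction n using Nat.strong_induction_on with
  | _ n ih =>
  intro Γ _ _ N P _ τ j hn hN hτ hirr hP hab hj hjP hjC hC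
  by_cases hexp : ∀ u ∈ P, u ^ p ∈ Subgroup.centralizer (N : Set Γ)
  · exact dade_base hM hN hτ hirr hP hab hexp hj hjP hjC hC
  let P₁ : Subgroup Γ :=
    { carrier := {u | u ∈ P ∧ u ^ p ∈ Subgroup.centralizer (N : Set Γ)}
      one_mem' := ⟨P.one_mem, by rw [one_pow]; exact Subgroup.one_mem _⟩
      mul_mem' := fun {u v} hu hv => ⟨P.mul_mem hu.1 hv.1, by
        rw [(show Commute u v from hab u hu.1 v hv.1).mul_pow]
        exact Subgroup.mul_mem _ hu.2 hv.2⟩
      inv_mem' := fun hu => ⟨P.inv_mem hu.1, by rw [inv_pow]; exact Subgroup.inv_mem _ hu.2⟩ }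
  have hP₁ : P₁ ≤ P := fun u hu => hu.1
  have hnor : Subgroup.normalizer (P : Set Γ) ≤ Subgroup.normalizer (P₁ : Set Γ) := fun g hg => by
    have : ∀ g ∈ Subgroup.normalizer (P : Set Γ), ∀ u ∈ P₁, g * u * g⁻¹ ∈ P₁ := fun g hg u hu =>
      ⟨(Subgroup.mem_normalizer_iff.1 hg _).1 hu.1, by
        rw [conj_pow]
        exact Subgroup.Normal.conj_mem inferInstance _ hu.2 _⟩
    refine Subgroup.mem_normalizer_iff.2 fun u => ⟨this g hg u, fun h => ?_⟩
    simpa [mul_assoc] using this _ (Subgroup.inv_mem _ hg) _ h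
  let H₁ := Subgroup.normalizer (P₁ : Set Γ)
  let C₁ : Subgroup H₁ := (N ⊓ Subgroup.centralizer (P₁ : Set Γ)).subgroupOf H₁
  have hC₁ : ∀ x, x ∈ C₁ ↔ H₁.subtype x ∈ N ∧ H₁.subtype x ∈ Subgroup.centralizer (P₁ : Set Γ) :=
    fun _ => Iff.rfl
  obtain ⟨τ₁, h1, h2, h3⟩ := dade_base hM hN hτ hirr (hP.to_le hP₁)
    (fun u hu v hv => hab u hu.1 v hv.1) (fun u hu => hu.2) H₁.subtype_injective (fun h => h.2)
    (fun x _ hx => ⟨⟨x, Subgroup.centralizer_le_normalizer _ hx⟩, rfl⟩) hC₁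
  haveI := normal_of_comap_cen (fun h : H₁ => h.2) hC₁
  have hPH : P ≤ H₁ := Subgroup.le_normalizer.trans hnor
  have hcen : ∀ x : H₁, x ∈ Subgroup.centralizer (P.subgroupOf H₁ : Set H₁) ↔
      (x : Γ) ∈ Subgroup.centralizer (P : Set Γ) := fun x => by
    rw [centralizer_subgroupOf hPH, Subgroup.mem_subgroupOf]
  have hcard : Nat.card C₁ = Nat.card ↥(N ⊓ Subgroup.centralizer (P₁ : Set Γ)) :=
    card_subgroupOf_of_le (inf_le_right.trans (Subgroup.centralizer_le_normalizer _))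
  have hlt : Nat.card C₁ < n := by
    rw [hcard, ← hn]
    refine card_lt_of_lt (lt_of_le_of_ne inf_le_left fun h => ?_)
    have h7 : P₁ ≤ Subgroup.centralizer (N : Set Γ) :=
      Subgroup.le_centralizer_iff.1 (inf_eq_left.1 h)
    refine hexp fun u hu => ?_
    obtain ⟨a, ha⟩ := hP ⟨u, hu⟩
    have h8 : u ^ p ^ a ∈ Subgroup.centralizer (N : Set Γ) := by
      rw [show u ^ p ^ a = 1 from congrArg Subtype.val ha]
      exact Subgroup.one_mem _
    refine Subgroup.pow_mem _ ?_ _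
    clear ha
    induction a with
    | zero => simpa using h8
    | succ a iha => exact iha (h7 ⟨P.pow_mem hu _, by rwa [← pow_mul, ← pow_succ]⟩)
  obtain ⟨τ', h4, h5, h6⟩ := ih _ hlt (N := C₁) (P := P.subgroupOf H₁) (j := j.codRestrict H₁ fun h => hnor (hjP h))
    rfl (fun h => hN ((hcard ▸ h).trans (Subgroup.card_dvd_of_le inf_le_left))) h1 h2
    (isPGroup_subgroupOf hP _) (fun u hu v hv => Subtype.ext (hab _ hu _ hv))
    (fun a b h => hj (congrArg Subtype.val h))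
    (fun h => Subgroup.mem_normalizer_iff.2 fun u => Subgroup.mem_normalizer_iff.1 (hjP h) u)
    (fun x hx hx' => by
      obtain ⟨h, hh⟩ := hjC x hx.1 ((hcen x).1 hx')
      exact ⟨h, Subtype.ext hh⟩)
    (fun x => by
      rw [hC, hcen]
      exact ⟨fun h => ⟨⟨h.1, Subgroup.centralizer_le hP₁ h.2⟩, h.2⟩, fun h => ⟨h.1.1, h.2⟩⟩)
  exact ⟨τ', h4, h5, h3.trans (g := ((j.codRestrict H₁ fun h => hnor (hjP h)).comp
      C.subtype).codRestrict C₁ fun c =>
        ⟨((hC _).1 c.2).1, Subgroup.centralizer_le hP₁ ((hC _).1 c.2).2⟩) h6⟩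

end Cfsg
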