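import Cfsg.Agent.Mod.DadeCore

/-! The multiplicity module of the Glauberman correspondent. -/

set_option autoImplicit false

namespace Cfsg

open Module Matrix

variable {p : ℕ} [hp : Fact p.Prime] {k : Type*} [Field k] [CharP k p] {A : Type*} [CommGroup A]
  [Fintype A]

theorem exists_hom_of_frame_end (hA : ∀ a : A, a ^ p = 1) {V : Type*} [AddCommGroup V]
    [Module k V] [FiniteDimensional k V] (ρ : A →* Module.End k V) {X : Type*}
    [Fintype X] [MulAction A X] (T : X → Module.End k V) (φ : X → Module.End k V →ₗ[k] k)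
    (hframe : ∀ z, ∑ x, φ x z • T x = z) (hT : ∀ (a : A) x, T (a • x) = ρ a * T x * ρ a⁻¹)
    (hφ : ∀ (a : A) x z, φ (a • x) (ρ a * z * ρ a⁻¹) = φ x z)
    (hfix : ∀ x, (∀ a : A, a • x = x) → ∃ c : k, T x = c • 1) (hm : ¬ p ∣ finrank k V)
    {E : Type*} [Group E] [Fintype E] (σ : E →* Module.End k V) (ψ : E →* MulAut A)
    (hσ : ∀ e a, σ e * ρ a = ρ (ψ e a) * σ e) :
    ∃ μ : E →* kˣ, ∀ e (c : k), ψ e = 1 → σ e = c • 1 → (μ e : k) = c := by
  let e := LinearMap.toMatrixAlgEquiv (Module.finBasis k V)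
  obtain ⟨μ, hμ⟩ := exists_hom_of_frame hA ((e : _ →* _).comp ρ) (fun x => e (T x))
    (fun x => (φ x).comp e.symm.toLinearMap)
    (fun z => by
      obtain ⟨z, rfl⟩ := e.surjective z
      conv_rhs => rw [← hframe z]
      simp)
    (fun a x => by simp [hT])
    (fun a x z => by
      obtain ⟨z, rfl⟩ := e.surjective z
      simp [hφ])
    (fun x hx => by
      obtain ⟨c, hc⟩ := hfix x hx
      exact ⟨c, by simp [hc]⟩) (by simpa using hm) ((e : _ →* _).comp σ) ψ
    (fun x a => by simp [← map_mul, hσ])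
  exact ⟨μ, fun x c h1 h2 => hμ x c h1 (by simp [h2])⟩

section bimod
variable {n n' : Type*} [Fintype n] [Fintype n'] [DecidableEq n] [DecidableEq n']

/-- two-sided multiplication -/
def lrMul (a : Matrix n n k) (b : Matrix n' n' k) : Module.End k (Matrix n n' k) where
  toFun f := a * f * b
  map_add' f g := by rw [Matrix.mul_add, Matrix.add_mul]
  map_smul' c f := by simp

omit [DecidableEq n] [DecidableEq n'] in
@[simp] theorem lrMul_apply (a : Matrix n n k) (b : Matrix n' n' k) (f : Matrix n n' k) :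
    lrMul a b f = a * f * b := rfl

theorem trace_lrMul (a : Matrix n n k) (b : Matrix n' n' k) :
    LinearMap.trace k _ (lrMul a b) = a.trace * b.trace := by
  rw [LinearMap.trace_eq_matrix_trace k (Matrix.stdBasis k n n'), Matrix.trace, Matrix.trace,
    Matrix.trace, Finset.sum_mul_sum, Fintype.sum_prod_type]
  refine Finset.sum_congr rfl fun i _ => Finset.sum_congr rfl fun j _ => ?_
  rw [Matrix.diag_apply, LinearMap.toMatrix_apply, Matrix.stdBasis_eq_single, lrMul_apply]
  have : ∀ x : Matrix n n' k, (Matrix.stdBasis k n n').repr x (i, j) = x i j := fun x => by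
    simp [Matrix.stdBasis]
  rw [this]
  simp [Matrix.mul_apply, Matrix.single, ite_and]

/-- the block components of an operator on rectangular matrices -/
def opComp (i i' : n') : Module.End k (Matrix n n' k) →ₗ[k] Matrix n n k where
  toFun L := Matrix.of fun a b => L (Matrix.single b i 1) a i'
  map_add' _ _ := rfl
  map_smul' _ _ := rfl

omit [Fintype n] [Fintype n'] in
theorem opComp_apply (i i' : n') (L : Module.End k (Matrix n n' k)) (a b : n) :
    opComp i i' L a b = L (Matrix.single b i 1) a i' := rfl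

theorem sum_opComp (L : Module.End k (Matrix n n' k)) (f : Matrix n n' k) :
    ∑ i, ∑ i', opComp i i' L * f * Matrix.single i i' (1 : k) = L f := by
  conv_rhs => rw [Matrix.matrix_eq_sum_single f, Finset.sum_comm]
  simp only [map_sum]
  refine Finset.sum_congr rfl fun i _ => ?_
  ext a b
  have : ∀ c, Matrix.single c i (f c i) = f c i • Matrix.single c i (1 : k) := fun c => by simp
  simp only [this, map_smul, Matrix.sum_apply, Matrix.smul_apply, smul_eq_mul]
  simp [Matrix.mul_apply, Matrix.single_apply, opComp_apply, ite_and, mul_comm]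

theorem opComp_conj (L : Module.End k (Matrix n n' k)) (g g' : Matrix n n k) (i i' : n') :
    opComp i i' (lrMul g 1 * L * lrMul g' 1) = g * opComp i i' L * g' := by
  ext a b
  have : g' * Matrix.single b i (1 : k) = ∑ c, g' c b • Matrix.single c i (1 : k) := by
    ext c d
    simp [Matrix.mul_apply, Matrix.single, Matrix.sum_apply, ite_and]
  simp only [opComp_apply, Module.End.mul_apply,
    lrMul_apply, Matrix.mul_one, this, map_sum, map_smul, Matrix.mul_apply, Matrix.sum_apply,
    Matrix.smul_apply, smul_eq_mul, Finset.mul_sum, Finset.sum_mul]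
  rw [Finset.sum_comm]
  conv_lhs => rw [Finset.sum_comm]
  exact Finset.sum_congr rfl fun _ _ => Finset.sum_congr rfl fun _ _ => by ring

theorem exists_hom_of_bimodule (hA : ∀ a : A, a ^ p = 1) {X : Type*} [Fintype X] [MulAction A X]
    (B B' : X → Matrix n n k) (hB : ∀ z : Matrix n n k, ∑ x, (z * B' x).trace • B x = z)
    (s : A →* Matrix n n k) (hsB : ∀ (a : A) x, B (a • x) = s a * B x * s a⁻¹)
    (hsB' : ∀ (a : A) x, B' (a • x) = s a * B' x * s a⁻¹) {E : Type*} [Group E] [Fintype E]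
    (r : E →* Matrix n n k) (r' : E →* Matrix n' n' k) (ψ : E →* MulAut A)
    (hr : ∀ e a, r e * s a = s (ψ e a) * r e) (C : Subgroup E) [hCn : C.Normal] [Fintype C]
    (hC : ¬ p ∣ Fintype.card C) (hCψ : ∀ c ∈ C, ψ c = 1)
    (hfix : ∀ x, (∀ a : A, a • x = x) → ∃ c ∈ C, B x = r c)
    (hschur : ∀ y, ∃ t : k, ∑ c : C, r' c * y * r' (c : E)⁻¹ = t • 1)
    (htr : ∑ c : C, (r c).trace * (r' (c : E)⁻¹).trace ≠ 0) :
    ∃ μ : E →* kˣ, (∀ c ∈ C, μ c = 1) ∧
      ∀ e (b : k), ψ e = 1 → r e = 1 → r' e⁻¹ = b • 1 → (μ e : k) = b := by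
  have hC0 : (Fintype.card C : k) ≠ 0 := by rwa [Ne, CharP.cast_eq_zero_iff k p]
  have hrr : ∀ e f (x : Matrix n n' k), r e * (r f * x * r' f⁻¹) * r' e⁻¹ =
      r (e * f) * x * r' (e * f)⁻¹ := fun e f x => by
    simp only [map_mul, _root_.mul_inv_rev, Matrix.mul_assoc]
  let M : Submodule k (Matrix n n' k) :=
    { carrier := {f | ∀ c ∈ C, r c * f * r' c⁻¹ = f}
      add_mem' := fun hf hg c hc => by rw [Matrix.mul_add, Matrix.add_mul, hf c hc, hg c hc]
      zero_mem' := fun c _ => by simp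
      smul_mem' := fun a f hf c hc => by rw [Matrix.mul_smul, Matrix.smul_mul, hf c hc] }
  let P : Module.End k (Matrix n n' k) :=
    (Fintype.card C : k)⁻¹ • ∑ c : C, lrMul (r c) (r' (c : E)⁻¹)
  have hP : ∀ f, P f = (Fintype.card C : k)⁻¹ • ∑ c : C, r c * f * r' (c : E)⁻¹ := fun f => by
    simp [P]
  have hPM : ∀ f, P f ∈ M := fun f => M.smul_mem _ fun c hc => by
    simp only [LinearMap.sum_apply, lrMul_apply, Matrix.mul_sum, Matrix.sum_mul, hrr]
    exact Fintype.sum_equiv (Equiv.mulLeft (⟨c, hc⟩ : C)) _ _ fun _ => rfl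
  have hPid : ∀ f ∈ M, P f = f := fun f hf => by
    rw [hP, Finset.sum_congr rfl fun (c : C) _ => hf c c.2, Finset.sum_const, Finset.card_univ,
      ← Nat.cast_smul_eq_nsmul k, smul_smul, inv_mul_cancel₀ hC0, one_smul]
  have hsc : ∀ a, ∀ c ∈ C, r c * s a = s a * r c := fun a c hc => by rw [hr, hCψ c hc]; rfl
  have hPs : ∀ a f, P (s a * f) = s a * P f := fun a f => by
    rw [hP, hP, Matrix.mul_smul, Matrix.mul_sum]
    congr 1
    exact Finset.sum_congr rfl fun c _ => by
      rw [← Matrix.mul_assoc, hsc a c c.2]; simp only [Matrix.mul_assoc]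
  have hsM : ∀ a, ∀ f ∈ M, lrMul (s a) 1 f ∈ M := fun a f hf => by
    rw [lrMul_apply, Matrix.mul_one, ← hPid f hf, ← hPs]
    exact hPM _
  have hrM : ∀ e, ∀ f ∈ M, lrMul (r e) (r' e⁻¹) f ∈ M := fun e f hf c hc => by
    rw [lrMul_apply]
    conv_rhs => rw [← hf _ (hCn.conj_mem' c hc e)]
    rw [hrr, hrr]
    congr 3 <;> group
  let ρ : A →* Module.End k M :=
    { toFun := fun a => (lrMul (s a) 1).restrict (hsM a)
      map_one' := by ext f : 2; simp
      map_mul' := fun a b => by ext f : 2; simp [Matrix.mul_assoc] }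
  let σ : E →* Module.End k M :=
    { toFun := fun e => (lrMul (r e) (r' e⁻¹)).restrict (hrM e)
      map_one' := by ext f : 2; simp
      map_mul' := fun a b => by ext f : 2; simp [Matrix.mul_assoc] }
  have hρ : ∀ a (f : M), (ρ a f).1 = s a * f.1 := fun a f => Matrix.mul_one _
  have hσ : ∀ e (f : M), (σ e f).1 = r e * f.1 * r' e⁻¹ := fun _ _ => rfl
  let P' : Matrix n n' k →ₗ[k] M := P.codRestrict M hPM
  let ex : Module.End k M →ₗ[k] Module.End k (Matrix n n' k) :=
    (LinearMap.llcomp k _ _ _ M.subtype).comp (LinearMap.lcomp k _ P')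
  have hex : ∀ y f, ex y f = y (P' f) := fun _ _ => rfl
  letI : MulAction A (X × n' × n') :=
    { smul := fun a x => (a • x.1, x.2)
      one_smul := fun x => Prod.ext (one_smul A x.1) rfl
      mul_smul := fun a b x => Prod.ext (mul_smul a b x.1) rfl }
  have hsm : ∀ (a : A) (x : X × n' × n'), a • x = (a • x.1, x.2) := fun _ _ => rfl
  obtain ⟨μ, hμ⟩ := exists_hom_of_frame_end hA ρ (X := X × n' × n')
    (fun x => P' ∘ₗ lrMul (B x.1) (Matrix.single x.2.1 x.2.2 1) ∘ₗ M.subtype)
    (fun x => Matrix.traceLinearMap n k k ∘ₗ LinearMap.mulRight k (B' x.1) ∘ₗ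
      opComp x.2.1 x.2.2 ∘ₗ ex)
    (fun y => by
      ext f : 2
      have h1 := sum_opComp (ex y) f
      have h2 : P' f = f := Subtype.ext (hPid _ f.2)
      rw [hex, h2] at h1
      rw [← hPid _ (y f).2, ← h1]
      simp only [LinearMap.sum_apply, LinearMap.smul_apply, Submodule.coe_sum, Submodule.coe_smul,
        map_sum, Fintype.sum_prod_type, LinearMap.comp_apply]
      rw [Finset.sum_comm]
      refine Finset.sum_congr rfl fun i _ => ?_
      rw [Finset.sum_comm]
      refine Finset.sum_congr rfl fun i' _ => ?_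
      conv_rhs => rw [← hB (opComp i i' (ex y))]
      simp [Matrix.sum_mul, P'])
    (fun a x => by
      ext f : 2
      simp [hsm, hρ, hsB, P', ← hPs, Matrix.mul_assoc])
    (fun a x y => by
      have h1 : ex (ρ a * y * ρ a⁻¹) = lrMul (s a) 1 * ex y * lrMul (s a⁻¹) 1 := by
        ext f : 1
        have : ρ a⁻¹ (P' f) = P' (s a⁻¹ * f) := Subtype.ext (by rw [hρ]; exact (hPs _ _).symm)
        simp [hex, hρ, this]
      simp only [LinearMap.comp_apply, hsm, h1, opComp_conj, hsB', LinearMap.mulRight_apply,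
        Matrix.traceLinearMap_apply]
      rw [mul_assoc (s a) (B' _), mul_assoc, ← mul_assoc (s a⁻¹), ← map_mul, inv_mul_cancel, map_one,
        one_mul, ← mul_assoc, Matrix.trace_mul_cycle, ← mul_assoc, ← map_mul, inv_mul_cancel,
        map_one, one_mul])
    (fun x hx => by
      obtain ⟨c, hc, h1⟩ := hfix x.1 fun a => congrArg Prod.fst (hx a)
      obtain ⟨t, ht⟩ := hschur (r' c * Matrix.single x.2.1 x.2.2 1)
      refine ⟨(Fintype.card C : k)⁻¹ * t, ?_⟩
      ext f : 2
      have h2 : ∀ d ∈ C, r d * f.1 = f.1 * r' d := fun d hd => by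
        conv_rhs => rw [← f.2 d hd, Matrix.mul_assoc, ← map_mul, inv_mul_cancel, map_one,
          Matrix.mul_one]
      change P (B x.1 * f.1 * Matrix.single x.2.1 x.2.2 (1 : k)) = ((Fintype.card C : k)⁻¹ * t) • f.1
      rw [hP, mul_smul, h1, h2 c hc, ← Matrix.mul_one f.1, ← Matrix.mul_smul, ← ht, Matrix.mul_one,
        Matrix.mul_sum]
      congr 1
      refine Finset.sum_congr rfl fun d _ => ?_
      rw [← Matrix.mul_assoc, ← Matrix.mul_assoc, h2 d d.2]
      simp only [Matrix.mul_assoc])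
    (fun h => by
      have h1 := (LinearMap.IsProj.mk hPM hPid).trace
      rw [(CharP.cast_eq_zero_iff k p _).2 h] at h1
      simp only [P, map_smul, map_sum, trace_lrMul, smul_eq_mul] at h1
      exact htr ((mul_eq_zero.1 h1).resolve_left (inv_ne_zero hC0))) σ ψ
    (fun e a => by
      ext f : 2
      simp only [Module.End.mul_apply, hρ, hσ, ← Matrix.mul_assoc, hr])
  refine ⟨μ, fun c hc => Units.ext (hμ c 1 (hCψ c hc) ?_), fun e b h1 h2 h3 => hμ e b h1 ?_⟩
  · ext f : 2
    simpa [hσ] using f.2 c hc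
  · ext f : 2
    simp [hσ, h2, h3]

end bimod

end Cfsg
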