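import Cfsg.Agent.Mod.DadeRank

/-! Splitting of the automizer of an endo-permutation module of an elementary abelian group. -/

set_option autoImplicit false

namespace Cfsg

open Module Matrix

theorem finrank_eq_mul_of_ker_le_range {K V : Type*} [Field K] [AddCommGroup V] [Module K V]
    [FiniteDimensional K V] {t : Module.End K V} {n : ℕ} (ht : t ^ (n + 1) = 0)
    (h : LinearMap.ker t ≤ LinearMap.range (t ^ n)) :
    finrank K V = (n + 1) * finrank K (LinearMap.ker t) := by
  have h1 : ∀ j ≤ n, finrank K (LinearMap.range (t ^ j)) =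
      finrank K (LinearMap.range (t ^ (j + 1))) + finrank K (LinearMap.ker t) := by
    intro j hj
    have h2 : LinearMap.ker t ≤ LinearMap.range (t ^ j) := h.trans (by
      obtain ⟨i, rfl⟩ := Nat.exists_eq_add_of_le hj
      rw [pow_add]
      exact LinearMap.range_comp_le_range _ _)
    rw [← LinearMap.finrank_range_add_finrank_ker (t.domRestrict (LinearMap.range (t ^ j))),
      LinearMap.range_domRestrict, LinearMap.ker_domRestrict,
      (Submodule.comapSubtypeEquivOfLe h2).finrank_eq, pow_succ', Module.End.mul_eq_comp,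
      LinearMap.range_comp]
  have h2 : ∀ j ≤ n + 1, finrank K V =
      finrank K (LinearMap.range (t ^ j)) + j * finrank K (LinearMap.ker t) := by
    intro j hj
    induction j with
    | zero => rw [pow_zero, Module.End.one_eq_id, LinearMap.range_id, finrank_top]; simp
    | succ j ih => rw [ih (by omega), h1 j (by omega)]; ring
  rw [h2 _ le_rfl, ht, LinearMap.range_zero, finrank_bot, zero_add]

theorem exists_generic_line {K V : Type*} [Field K] [AddCommGroup V] [Module K V]
    [FiniteDimensional K V] {t : Module.End K V} {n : ℕ} (ht : t ^ (n + 1) = 0)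
    (hdim : ¬ n + 1 ∣ finrank K V) (hc : ∀ x : Module.End K V, t * x = x * t → ∃ c : K,
      ∀ v, t v = 0 → x v - c • v ∈ LinearMap.range (t ^ n)) :
    ∃ v, t v = 0 ∧ v ∉ LinearMap.range (t ^ n) ∧
      ∀ v', t v' = 0 → ∃ a : K, v' - a • v ∈ LinearMap.range (t ^ n) := by
  classical
  have h0 : ¬ LinearMap.ker t ≤ LinearMap.range (t ^ n) := fun h =>
    hdim ⟨_, finrank_eq_mul_of_ker_le_range ht h⟩
  have hex : ∃ s, ¬ LinearMap.ker t ≤ LinearMap.range (t ^ s) := ⟨n, h0⟩
  obtain ⟨s, hs⟩ : ∃ s, Nat.find hex = s + 1 := Nat.exists_eq_succ_of_ne_zero fun h => by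
    have := Nat.find_spec hex
    rw [h, pow_zero, Module.End.one_eq_id, LinearMap.range_id] at this
    exact this le_top
  have h1 := Nat.find_spec hex
  have h2 := Nat.find_min hex (m := s) (by omega)
  have h3 : s + 1 ≤ n := hs ▸ Nat.find_min' hex h0
  rw [hs] at h1
  rw [not_not] at h2
  obtain ⟨v, hv, hv1⟩ := SetLike.not_le_iff_exists.1 h1
  obtain ⟨w, hw⟩ := h2 hv
  obtain ⟨φ, hφ, hφ1⟩ := Submodule.exists_le_ker_of_notMem hv1
  have hle : LinearMap.range (t ^ n) ≤ LinearMap.range (t ^ (s + 1)) := by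
    obtain ⟨i, rfl⟩ := Nat.exists_eq_add_of_le h3
    rw [pow_add]
    exact LinearMap.range_comp_le_range _ _
  let x : Module.End K V := ∑ i ∈ Finset.range (s + 1), t ^ i * φ.smulRight w * t ^ (s - i)
  have hx : ∀ v', t v' = 0 → x v' = φ v' • v := fun v' hv' => by
    simp only [x, LinearMap.sum_apply]
    simp only [Finset.sum_range_succ, Module.End.mul_apply,
      LinearMap.smulRight_apply, Nat.sub_self, pow_zero, Module.End.one_apply, map_smul, hw]
    rw [Finset.sum_eq_zero, zero_add]
    intro i hi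
    obtain ⟨l, hl⟩ : ∃ l, s - i = l + 1 :=
      Nat.exists_eq_succ_of_ne_zero (by have := Finset.mem_range.1 hi; omega)
    rw [hl, pow_succ, Module.End.mul_apply, hv', map_zero, map_zero, zero_smul]
  have hxt : t * x = x * t := by
    have h4 := LinearMap.congr_fun ((LinearMap.commute_mulLeft_right (R := K) t t).mul_geom_sum₂
      (s + 1)) (φ.smulRight w)
    simp only [Module.End.mul_apply, LinearMap.sub_apply, LinearMap.sum_apply,
      LinearMap.pow_mulLeft, LinearMap.pow_mulRight, LinearMap.mulLeft_apply,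
      LinearMap.mulRight_apply, Nat.add_sub_cancel, ← mul_assoc] at h4
    rw [← sub_eq_zero]
    refine h4.trans ?_
    ext u
    have h5 : φ ((t ^ (s + 1)) u) = 0 := hφ1 ⟨u, rfl⟩
    have h6 : (t ^ (s + 1)) w = 0 := by rw [pow_succ', Module.End.mul_apply, hw]; exact hv
    simp [h5, h6]
  obtain ⟨c, hc⟩ := hc x hxt
  have h4 := hc v hv
  rw [hx v hv, ← sub_smul] at h4
  have h5 : φ v - c = 0 := by
    by_contra h
    exact hv1 (hle ((Submodule.smul_mem_iff _ h).1 h4))
  have h6 : c ≠ 0 := fun h => hφ (by rwa [h, sub_zero] at h5)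
  refine ⟨v, hv, fun h => hv1 (hle h), fun v' hv' => ⟨c⁻¹ * φ v', ?_⟩⟩
  have h7 := Submodule.smul_mem _ (-c⁻¹) (hc v' hv')
  rw [hx v' hv', smul_sub, smul_smul, smul_smul, neg_mul, neg_mul, inv_mul_cancel₀ h6] at h7
  convert h7 using 1
  module

theorem exists_semiInvariant_of_cocycle {R K : Type*} [CommRing R] [IsDomain R] [IsGCDMonoid R]
    [Field K] [Algebra R K] [IsFractionRing R K] {E : Type*} [Group E] [Fintype E]
    (α : E →* (R ≃+* R)) (α' : E →* (K ≃+* K))
    (hα : ∀ e r, α' e (algebraMap R K r) = algebraMap R K (α e r)) (a : E → K) (h1 : a 1 = 1)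
    (ha : ∀ e f, a (e * f) = α' e (a f) * a e) :
    ∃ g : K, g ≠ 0 ∧ ∀ e, ∃ u : Rˣ, a e * α' e g = algebraMap R K u * g := by
  classical
  letI : NormalizedGCDMonoid R := Nonempty.some inferInstance
  obtain ⟨d₀, hd₀⟩ := IsLocalization.exist_integer_multiples_of_finite (nonZeroDivisors R) a
  let d : R := ∏ f, α f d₀
  have hd : ∀ e, α e d = d := fun e => by
    simp only [d, map_prod]
    exact Fintype.prod_equiv (Equiv.mulLeft e) _ _ fun f => by simp
  have hd0 : d ≠ 0 := Finset.prod_ne_zero_iff.2 fun f _ => by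
    simp
  have hinj := IsFractionRing.injective R K
  have hd0' : algebraMap R K d ≠ 0 := by simpa using hd0
  obtain ⟨d₁, hd₁⟩ : (d₀ : R) ∣ d := by
    simpa using Finset.dvd_prod_of_mem (fun f => α f d₀) (Finset.mem_univ (1 : E))
  have h2 : ∀ f, ∃ q : R, algebraMap R K q = algebraMap R K d * a f := fun f => by
    obtain ⟨q, hq⟩ := hd₀ f
    exact ⟨d₁ * q, by rw [map_mul, hq, hd₁, map_mul, Algebra.smul_def]; ring⟩
  choose q hq using h2
  have h3 : ∀ e f, d * q (e * f) = q e * α e (q f) := fun e f => hinj (by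
    rw [map_mul, map_mul, ← hα, hq, hq, hq, map_mul, hα, hd, ha]; ring)
  let g := Finset.univ.gcd q
  have hg0 : g ≠ 0 := fun h => hd0' (by
    have := hq 1
    rw [Finset.gcd_eq_zero_iff.1 h 1 (Finset.mem_univ _), h1, mul_one, map_zero] at this
    exact this.symm)
  refine ⟨algebraMap R K g / algebraMap R K d, div_ne_zero (by simpa using hg0) hd0', fun e => ?_⟩
  have h4 : Associated (d * g) (q e * α e g) := by
    have h5 : Associated (Finset.univ.gcd fun f => α e (q f)) (α e g) := by
      refine associated_of_dvd_dvd ?_ (Finset.dvd_gcd fun f hf => map_dvd _ (Finset.gcd_dvd hf))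
      have : (α e).symm (Finset.univ.gcd fun f => α e (q f)) ∣ g := Finset.dvd_gcd fun f hf => by
        simpa using map_dvd (α e).symm (Finset.gcd_dvd (f := fun f => α e (q f)) hf)
      simpa using map_dvd (α e) this
    have h6 : (Finset.univ.gcd fun f => q (e * f)) = g := by
      refine dvd_antisymm_of_normalize_eq Finset.normalize_gcd Finset.normalize_gcd
        (Finset.dvd_gcd fun f hf => ?_) (Finset.dvd_gcd fun f hf => Finset.gcd_dvd (Finset.mem_univ _))
      simpa using Finset.gcd_dvd (f := fun f => q (e * f)) (Finset.mem_univ (e⁻¹ * f))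
    refine (h6 ▸ (Finset.gcd_mul_left' Finset.univ (fun f => q (e * f)) d).symm).trans ?_
    simp only [h3]
    exact (Finset.gcd_mul_left' _ _ _).trans (h5.mul_left _)
  obtain ⟨u, hu⟩ := h4
  refine ⟨u, ?_⟩
  have h7 := congrArg (algebraMap R K) hu
  rw [map_mul, map_mul, map_mul, hq] at h7
  rw [map_div₀, hα, hα, hd]
  field_simp
  apply mul_left_cancel₀ hd0'
  linear_combination -h7

section frame
variable {p : ℕ} [hp : Fact p.Prime] {k : Type*} [Field k] [CharP k p] {A : Type*} [CommGroup A]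
  [Fintype A] {m : Type*} [Fintype m] [DecidableEq m] {K : Type*} [Field K] [Algebra k K]

theorem ker_conjGen_le (hA : ∀ a : A, a ^ p = 1) (ρ : A →* Matrix m m K) {X : Type*} [Fintype X]
    [MulAction A X] (T : X → Matrix m m K) (φ : X → Matrix m m K →ₗ[K] K)
    (hframe : ∀ z, ∑ x, φ x z • T x = z) (hT : ∀ (a : A) x, T (a • x) = ρ a * T x * ρ a⁻¹)
    (hφ : ∀ (a : A) x z, φ (a • x) (ρ a * z * ρ a⁻¹) = φ x z)
    (hfix : ∀ x, (∀ a : A, a • x = x) → ∃ c : K, T x = c • 1) {y : A → K}
    (hy : LinearIndependent k y) : LinearMap.ker (conjGen ρ y) ≤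
      LinearMap.range (conjGen ρ y ^ (p - 1)) ⊔ Submodule.span K {1} := by
  intro z hz
  let π : (X → K) →ₗ[K] Matrix m m K := Fintype.linearCombination K T
  have hπ : ∀ v, π v = ∑ x, v x • T x := fun v => Fintype.linearCombination_apply _ _ _
  have h1 : ∀ v, π (permTau X y v) = conjGen ρ y (π v) := fun v => by
    rw [permTau, conjGen, LinearMap.sum_apply, LinearMap.sum_apply, map_sum]
    refine Finset.sum_congr rfl fun a _ => ?_
    simp only [LinearMap.smul_apply, LinearMap.sub_apply, map_smul, map_sub, Module.End.one_apply,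
      Module.End.mul_apply, LinearMap.mulLeft_apply, LinearMap.mulRight_apply]
    congr 2
    rw [hπ, hπ, Finset.sum_mul, Finset.mul_sum]
    exact Fintype.sum_equiv (MulAction.toPerm a⁻¹) _ _ fun x => by
      simp [← mul_assoc, ← hT]
  have h2 : ∀ (j : ℕ) v, π ((permTau X y ^ j) v) = (conjGen ρ y ^ j) (π v) := fun j v => by
    induction j with
    | zero => rfl
    | succ j ih => rw [pow_succ', pow_succ', Module.End.mul_apply, h1, ih, Module.End.mul_apply]
  have h3 : permTau X y (fun x => φ x z) = 0 := by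
    funext x
    have := congrArg (φ x) (LinearMap.mem_ker.1 hz)
    rw [conjGen_apply, map_sum, map_zero] at this
    rw [permTau_apply, Pi.zero_apply, ← this]
    refine Finset.sum_congr rfl fun a _ => ?_
    rw [map_smul, map_sub, ← hφ a (a⁻¹ • x), smul_inv_smul, smul_eq_mul]
  obtain ⟨w, hw⟩ := exists_permTau_pow hA hy h3
  have h4 : z = π ((permTau X y ^ (p - 1)) w) + π ((fun x => φ x z) - (permTau X y ^ (p - 1)) w) := by
    rw [← map_add, add_sub_cancel, hπ, hframe]
  rw [h4]
  refine Submodule.add_mem_sup ⟨_, (h2 _ _).symm⟩ ?_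
  rw [hπ]
  refine Submodule.sum_mem _ fun x _ => ?_
  by_cases hx : ∀ a : A, a • x = x
  · obtain ⟨c, hc⟩ := hfix x hx
    rw [hc]
    exact Submodule.smul_mem _ _ (Submodule.smul_mem _ _ (Submodule.mem_span_singleton_self _))
  · rw [Pi.sub_apply, hw x hx, sub_self, zero_smul]
    exact Submodule.zero_mem _

theorem ker_adGen_eq [CharP K p] (hA : ∀ a : A, a ^ p = 1) (ρ : A →* Matrix m m K) {y : A → K}
    (hm : ¬ p ∣ Fintype.card m)
    (h1 : ∀ j, finrank K (LinearMap.ker (adGen ρ y ^ j)) ≤
      finrank K (LinearMap.ker (conjGen ρ y ^ j)))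
    (h2 : LinearMap.ker (conjGen ρ y) ≤
      LinearMap.range (conjGen ρ y ^ (p - 1)) ⊔ Submodule.span K {1}) :
    LinearMap.range (adGen ρ y ^ (p - 1)) ⊔ Submodule.span K {1} = LinearMap.ker (adGen ρ y) := by
  obtain ⟨n, hn⟩ : ∃ n, p - 1 = n + 1 := ⟨p - 2, by have := hp.out.two_le; omega⟩
  have hp0 : ((p : ℕ) : Module.End K (Matrix m m K)) = 0 := by
    rw [← map_natCast (algebraMap K _), CharP.cast_eq_zero, map_zero]
  have hD : adGen ρ y ^ p = 0 := by
    rw [adGen, sum_pow_prime_of_commute hp.out hp0]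
    · refine Finset.sum_eq_zero fun a _ => ?_
      rw [smul_pow, sub_pow_prime_of_commute hp.out hp0 (LinearMap.commute_mulLeft_right _ _),
        LinearMap.pow_mulLeft, LinearMap.pow_mulRight, ← map_pow, hA, map_one]
      simp [← Module.End.one_eq_id]
    · intro a b
      refine Commute.smul_left (Commute.smul_right ?_ _) _
      have h : ρ a * ρ b = ρ b * ρ a := by rw [← map_mul, mul_comm, map_mul]
      ext x : 1
      simp only [Module.End.mul_apply, LinearMap.sub_apply, LinearMap.mulLeft_apply,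
        LinearMap.mulRight_apply, mul_sub, sub_mul, ← mul_assoc, h]
      simp only [mul_assoc, h]
      abel
  have h3 : (1 : Matrix m m K) ∉ LinearMap.range (adGen ρ y ^ (p - 1)) := by
    rintro ⟨x, hx⟩
    have := congrArg Matrix.trace hx
    rw [hn, pow_succ', Module.End.mul_apply, adGen_apply, Matrix.trace_sum, Matrix.trace_one,
      Finset.sum_eq_zero (fun a _ => by
        rw [Matrix.trace_smul, Matrix.trace_sub, Matrix.trace_mul_comm, sub_self, smul_zero]),
      eq_comm, CharP.cast_eq_zero_iff K p] at this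
    exact hm this
  refine Submodule.eq_of_le_of_finrank_le (sup_le ?_ ?_) ?_
  · rintro _ ⟨x, rfl⟩
    rw [LinearMap.mem_ker, ← Module.End.mul_apply, ← pow_succ', Nat.sub_add_cancel hp.out.one_le,
      hD, LinearMap.zero_apply]
  · rw [Submodule.span_singleton_le_iff_mem, LinearMap.mem_ker, adGen_apply]
    simp
  · rw [Submodule.finrank_sup_span_singleton h3]
    have h4 := h1 1
    rw [pow_one, pow_one] at h4
    have h5 := (Submodule.finrank_mono h2).trans (Submodule.finrank_add_le_finrank_add_finrank _ _)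
    have h6 : finrank K (Submodule.span K {(1 : Matrix m m K)}) ≤ 1 := by
      simpa using finrank_span_le_card ({(1 : Matrix m m K)} : Set _)
    have h7 := LinearMap.finrank_range_add_finrank_ker (adGen ρ y ^ (p - 1))
    have h8 := LinearMap.finrank_range_add_finrank_ker (conjGen ρ y ^ (p - 1))
    have h9 := h1 (p - 1)
    omega

theorem matrix_linearMap_ext_map {W : Type*} [AddCommGroup W] [Module K W]
    {f g : Matrix m m K →ₗ[K] W} (h : ∀ z : Matrix m m k, f (z.map (algebraMap k K)) =
      g (z.map (algebraMap k K))) : f = g := by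
  refine (Matrix.stdBasis K m m).ext fun ⟨i, j⟩ => ?_
  have := h (Matrix.single i j 1)
  rw [Matrix.map_single _ _ _ (algebraMap k K), map_one] at this
  rwa [Matrix.stdBasis_eq_single]

theorem exists_hom_of_frame_aux (K : Type*) [Field K] [Algebra k K]
    [Algebra (MvPolynomial A k) K] [IsFractionRing (MvPolynomial A k) K]
    [IsScalarTower k (MvPolynomial A k) K] (hA : ∀ a : A, a ^ p = 1) (ρ : A →* Matrix m m k) {X : Type*}
    [Fintype X] [MulAction A X] (T : X → Matrix m m k) (φ : X → Matrix m m k →ₗ[k] k)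
    (hframe : ∀ z, ∑ x, φ x z • T x = z) (hT : ∀ (a : A) x, T (a • x) = ρ a * T x * ρ a⁻¹)
    (hφ : ∀ (a : A) x z, φ (a • x) (ρ a * z * ρ a⁻¹) = φ x z)
    (hfix : ∀ x, (∀ a : A, a • x = x) → ∃ c : k, T x = c • 1) (hm : ¬ p ∣ Fintype.card m)
    {E : Type*} [Group E] [Fintype E] (σ : E →* Matrix m m k) (ψ : E →* MulAut A)
    (hσ : ∀ e a, σ e * ρ a = ρ (ψ e a) * σ e) :
    ∃ μ : E →* kˣ, ∀ e (c : k), ψ e = 1 → σ e = c • 1 → (μ e : k) = c := by
  haveI : CharP K p := charP_of_injective_algebraMap (algebraMap k K).injective p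
  let ι : Matrix m m k →+* Matrix m m K := (algebraMap k K).mapMatrix
  have hι : ∀ (c : k) z, ι (c • z) = algebraMap k K c • ι z := fun c z => by
    ext i j; simp [ι]
  let ρ' : A →* Matrix m m K := ι.toMonoidHom.comp ρ
  let Y : A → K := fun a => algebraMap (MvPolynomial A k) K (MvPolynomial.X a)
  have hY : LinearIndependent k Y :=
    (MvPolynomial.linearIndependent_X A k).map' (IsScalarTower.toAlgHom k (MvPolynomial A k) K).toLinearMap
      (LinearMap.ker_eq_bot.2 (IsFractionRing.injective (MvPolynomial A k) K))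
  let φ' : X → Matrix m m K →ₗ[K] K := fun x =>
    { toFun := fun z => ∑ i, ∑ j, z i j * algebraMap k K (φ x (Matrix.single i j 1))
      map_add' := fun z z' => by simp [add_mul, Finset.sum_add_distrib]
      map_smul' := fun c z => by simp [Finset.mul_sum, mul_assoc] }
  have hφ' : ∀ x z, φ' x (ι z) = algebraMap k K (φ x z) := fun x z => by
    conv_rhs => rw [Matrix.matrix_eq_sum_single z]
    simp only [φ', map_sum, LinearMap.coe_mk, AddHom.coe_mk]
    refine Finset.sum_congr rfl fun i _ => Finset.sum_congr rfl fun j _ => ?_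
    rw [show Matrix.single i j (z i j) = z i j • Matrix.single i j (1 : k) by simp, map_smul,
      smul_eq_mul, map_mul]
    rfl
  have hker := ker_adGen_eq hA ρ' hm (finrank_ker_adGen_le (K := K)
    (fun a => ⟨1, by rw [pow_one, hA]⟩) ρ) (ker_conjGen_le hA ρ' (fun x => ι (T x)) φ'
    (fun z => by
      have := matrix_linearMap_ext_map (k := k) (f := ∑ x, (φ' x).smulRight (ι (T x)))
        (g := LinearMap.id) fun z => by
          change _ = ι z
          conv_rhs => rw [← hframe z]
          simp only [LinearMap.sum_apply, LinearMap.smulRight_apply, map_sum, hι]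
          exact Finset.sum_congr rfl fun x _ => by rw [← hφ']; rfl
      simpa using LinearMap.congr_fun this z)
    (fun a x => by rw [hT, map_mul, map_mul]; rfl)
    (fun a x z => by
      have := matrix_linearMap_ext_map (k := k) (f := (φ' (a • x)).comp
        (LinearMap.mulLeft K (ρ' a) * LinearMap.mulRight K (ρ' a⁻¹))) (g := φ' x) fun z => by
          change φ' (a • x) (ι (ρ a) * (ι z * ι (ρ a⁻¹))) = φ' x (ι z)
          rw [← map_mul, ← map_mul, hφ', hφ', ← mul_assoc, hφ]
      simpa [mul_assoc] using LinearMap.congr_fun this z)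
    (fun x hx => by
      obtain ⟨c, hc⟩ := hfix x hx
      exact ⟨algebraMap k K c, by rw [hc, hι, map_one]⟩) hY)
  let t₀ : Matrix m m K := ∑ a, Y a • (ρ' a - 1)
  let t : Module.End K (m → K) := Matrix.toLinAlgEquiv' t₀
  have ht : ∀ v, t v = t₀ *ᵥ v := fun _ => rfl
  have had : ∀ z, adGen ρ' Y z = t₀ * z - z * t₀ := fun z => by
    simp only [adGen_apply, t₀, Finset.sum_mul, Finset.mul_sum, ← Finset.sum_sub_distrib]
    refine Finset.sum_congr rfl fun a _ => ?_
    simp [sub_mul, mul_sub, smul_sub]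
  have hp0 : ((p : ℕ) : Matrix m m K) = 0 := by
    rw [← map_natCast (algebraMap K _), CharP.cast_eq_zero, map_zero]
  have hp1 : p - 1 + 1 = p := Nat.sub_add_cancel hp.out.one_le
  obtain ⟨v, hv, hv0, hv1⟩ := exists_generic_line (t := t) (n := p - 1) (by
    rw [hp1, ← map_pow, sum_pow_prime_of_commute hp.out hp0, Finset.sum_eq_zero, map_zero]
    · intro a _
      rw [smul_pow, sub_pow_prime_of_commute hp.out hp0 (Commute.one_right _), ← map_pow ρ', hA]
      simp
    · exact fun a b => Commute.smul_left (Commute.smul_right ((((Commute.all a b).map ρ').sub_right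
        (Commute.one_right _)).sub_left (Commute.one_left _)) _) _) (by simpa [hp1] using hm) (by
    intro x hx
    obtain ⟨z, rfl⟩ := Matrix.toLinAlgEquiv'.surjective x
    have h1 : z ∈ LinearMap.ker (adGen ρ' Y) := by
      rw [LinearMap.mem_ker, had, sub_eq_zero]
      exact Matrix.toLinAlgEquiv'.injective (by rw [map_mul, map_mul]; exact hx)
    rw [← hker] at h1
    obtain ⟨_, ⟨w, rfl⟩, z', hz', rfl⟩ := Submodule.mem_sup.1 h1
    obtain ⟨c, rfl⟩ := Submodule.mem_span_singleton.1 hz'
    refine ⟨c, fun v hv => ⟨w *ᵥ v, ?_⟩⟩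
    have h2 : ∀ j : ℕ, (t ^ j) (w *ᵥ v) = ((adGen ρ' Y ^ j) w) *ᵥ v := fun j => by
      induction j with
      | zero => rfl
      | succ j ih =>
        rw [pow_succ', pow_succ', Module.End.mul_apply, Module.End.mul_apply, ih, had,
          Matrix.sub_mulVec, ← Matrix.mulVec_mulVec, ← Matrix.mulVec_mulVec, ← ht v, hv,
          Matrix.mulVec_zero, sub_zero, ht]
    rw [h2, Matrix.toLinAlgEquiv'_apply, Matrix.add_mulVec, Matrix.smul_mulVec, Matrix.one_mulVec,
      add_sub_cancel_right])
  let α : E →* ((MvPolynomial A k) ≃+* (MvPolynomial A k)) :=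
    { toFun := fun e => (MvPolynomial.renameEquiv k (ψ e).toEquiv).toRingEquiv
      map_one' := by ext r; simp
      map_mul' := fun e f => by ext r; simp [MvPolynomial.rename_rename, Function.comp_def] }
  let α' : E →* (K ≃+* K) := (IsFractionRing.ringEquivOfRingEquivHom (MvPolynomial A k) K).comp α
  have hα : ∀ e r, α' e (algebraMap (MvPolynomial A k) K r) = algebraMap (MvPolynomial A k) K (α e r) := fun e r =>
    IsFractionRing.ringEquivOfRingEquiv_algebraMap _ _
  have hαk : ∀ e c, α' e (algebraMap k K c) = algebraMap k K c := fun e c => by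
    rw [IsScalarTower.algebraMap_apply k (MvPolynomial A k) K, hα]
    simp [α]
  have hαY : ∀ e a, α' e (Y a) = Y (ψ e a) := fun e a => by
    rw [hα]
    exact congrArg _ (MvPolynomial.rename_X _ _)
  have hαv : ∀ e z u, α' e ∘ (ι z *ᵥ u) = ι z *ᵥ (α' e ∘ u) := fun e z u => by
    ext i
    simp [ι, Matrix.mulVec, dotProduct, hαk]
  let S : E → (m → K) →+ (m → K) := fun e =>
    { toFun := fun u => ι (σ e) *ᵥ (α' e ∘ u)
      map_zero' := by simp [Function.comp_def, ← Pi.zero_def]
      map_add' := fun u u' => by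
        rw [← Matrix.mulVec_add]; congr 1; ext i; simp }
  have hS : ∀ e u, S e u = ι (σ e) *ᵥ (α' e ∘ u) := fun _ _ => rfl
  have hSs : ∀ e (c : K) u, S e (c • u) = α' e c • S e u := fun e c u => by
    rw [hS, hS, ← Matrix.mulVec_smul]; congr 1; ext i; simp
  have hSm : ∀ e f u, S (e * f) u = S e (S f u) := fun e f u => by
    rw [hS, hS, hS, hαv, Matrix.mulVec_mulVec, map_mul, map_mul, map_mul]; rfl
  have hSt : ∀ e u, S e (t u) = t (S e u) := fun e u => by
    simp only [ht, t₀, Matrix.sum_mulVec, Matrix.smul_mulVec, Matrix.sub_mulVec,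
      Matrix.one_mulVec, map_sum, hSs, map_sub, hαY]
    refine Fintype.sum_equiv (ψ e).toEquiv _ _ fun a => ?_
    congr 2
    change S e (ι (ρ a) *ᵥ u) = ι (ρ (ψ e a)) *ᵥ S e u
    rw [hS, hS, hαv, Matrix.mulVec_mulVec, Matrix.mulVec_mulVec, ← map_mul, ← map_mul, hσ]
  have hSr : ∀ e, ∀ u ∈ LinearMap.range (t ^ (p - 1)), S e u ∈ LinearMap.range (t ^ (p - 1)) := by
    rintro e _ ⟨u, rfl⟩
    refine ⟨S e u, ?_⟩
    generalize p - 1 = j
    induction j with
    | zero => rfl
    | succ j ih => rw [pow_succ', Module.End.mul_apply, Module.End.mul_apply, hSt, ih]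
  choose a ha using fun e => hv1 (S e v) (by rw [← hSt, hv, map_zero])
  have hu : ∀ e (b : K), S e v - b • v ∈ LinearMap.range (t ^ (p - 1)) → a e = b := fun e b h => by
    by_contra h1
    have h2 := Submodule.sub_mem _ h (ha e)
    rw [sub_sub_sub_cancel_left, ← sub_smul] at h2
    exact hv0 ((Submodule.smul_mem_iff _ (sub_ne_zero.2 h1)).1 h2)
  have hc : ∀ e (c : k), ψ e = 1 → σ e = c • 1 → α' e = 1 ∧ a e = algebraMap k K c := by
    intro e c h1 h2
    have h3 : α' e = 1 := by
      have : α e = 1 := by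
        rw [← map_one α]
        simp only [α, MonoidHom.coe_mk, OneHom.coe_mk, h1, map_one ψ]
      simp only [α', MonoidHom.comp_apply, this, map_one]
    refine ⟨h3, hu _ _ ?_⟩
    rw [hS, h2, h3, hι, map_one, Matrix.smul_mulVec, Matrix.one_mulVec]
    simp
  obtain ⟨g, hg0, hg⟩ := exists_semiInvariant_of_cocycle α α' hα a
    ((hc 1 1 (map_one _) (by simp)).2.trans (map_one _)) (fun e f => hu _ _ (by
      have h1 := Submodule.add_mem _ (hSr e _ (ha f)) (Submodule.smul_mem _ (α' e (a f)) (ha e))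
      rw [map_sub, hSs, ← hSm, smul_sub, smul_smul] at h1
      simpa using h1))
  have h1 : ∀ e, ∃ c : k, a e * α' e g = algebraMap k K c * g := fun e => by
    obtain ⟨u, hu⟩ := hg e
    obtain ⟨c, -, hc⟩ := MvPolynomial.isUnit_iff_eq_C_of_isReduced.1 u.isUnit
    exact ⟨c, by rw [hu, hc, IsScalarTower.algebraMap_apply k (MvPolynomial A k) K]; rfl⟩
  choose μ hμ using h1
  have h2 : ∀ e (c : k), ψ e = 1 → σ e = c • 1 → μ e = c := fun e c h1 h2 => by
    have := hμ e
    rw [(hc e c h1 h2).1, (hc e c h1 h2).2] at this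
    exact ((algebraMap k K).injective (mul_right_cancel₀ hg0 this)).symm
  refine ⟨MonoidHom.toHomUnits ⟨⟨μ, h2 1 1 (map_one _) (by simp)⟩, fun e f => ?_⟩, h2⟩
  apply (algebraMap k K).injective
  apply mul_right_cancel₀ hg0
  have h3 : a (e * f) = α' e (a f) * a e := hu _ _ (by
    have h1 := Submodule.add_mem _ (hSr e _ (ha f)) (Submodule.smul_mem _ (α' e (a f)) (ha e))
    rw [map_sub, hSs, ← hSm, smul_sub, smul_smul] at h1
    simpa using h1)
  have h4 := congrArg (α' e) (hμ f)
  rw [map_mul, map_mul, hαk] at h4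
  rw [← hμ, h3, map_mul α', map_mul, RingAut.mul_apply]
  linear_combination a e * h4 + algebraMap k K (μ f) * hμ e

theorem exists_hom_of_frame (hA : ∀ a : A, a ^ p = 1) (ρ : A →* Matrix m m k) {X : Type*}
    [Fintype X] [MulAction A X] (T : X → Matrix m m k) (φ : X → Matrix m m k →ₗ[k] k)
    (hframe : ∀ z, ∑ x, φ x z • T x = z) (hT : ∀ (a : A) x, T (a • x) = ρ a * T x * ρ a⁻¹)
    (hφ : ∀ (a : A) x z, φ (a • x) (ρ a * z * ρ a⁻¹) = φ x z)
    (hfix : ∀ x, (∀ a : A, a • x = x) → ∃ c : k, T x = c • 1) (hm : ¬ p ∣ Fintype.card m)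
    {E : Type*} [Group E] [Fintype E] (σ : E →* Matrix m m k) (ψ : E →* MulAut A)
    (hσ : ∀ e a, σ e * ρ a = ρ (ψ e a) * σ e) :
    ∃ μ : E →* kˣ, ∀ e (c : k), ψ e = 1 → σ e = c • 1 → (μ e : k) = c :=
  exists_hom_of_frame_aux (FractionRing (MvPolynomial A k)) hA ρ T φ hframe hT hφ hfix hm σ ψ hσ

end frame

end Cfsg
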