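import Cfsg.Agent.Mod.DadeWeyl

/-! Comparison of the generic ranks of the two adjoint actions of an elementary abelian group. -/

set_option autoImplicit false

namespace Cfsg

open Module MonoidAlgebra

section trans
variable {p : ℕ} [hp : Fact p.Prime] {K : Type*} [Field K] [CharP K p] {A : Type*} [Group A]
  [Fintype A] {V : Type*} [AddCommGroup V] [Module K V]

theorem exists_const_mem_of_stable (hA : IsPGroup p A) (Z : Submodule K (A → V))
    (hZ : ∀ a : A, ∀ f ∈ Z, (fun b => f (a⁻¹ * b)) ∈ Z) {f : A → V} (hf : f ∈ Z) (h0 : f ≠ 0) :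
    ∃ v : V, v ≠ 0 ∧ (fun _ => v) ∈ Z := by
  letI : DistribMulAction A (A → V) :=
    { smul := fun a f b => f (a⁻¹ * b)
      one_smul := fun f => funext fun b => by change f (1⁻¹ * b) = f b; simp
      mul_smul := fun a c f => funext fun b => by
        change f ((a * c)⁻¹ * b) = f (c⁻¹ * (a⁻¹ * b)); simp [mul_assoc]
      smul_zero := fun _ => rfl
      smul_add := fun _ _ _ => rfl }
  obtain ⟨w, hw, hw0, hfix⟩ := exists_fixed_ne_zero_of_isPGroup hA (V := A → V) (fun v => by
    rw [← Nat.cast_smul_eq_nsmul K, CharP.cast_eq_zero, zero_smul]) Z.toAddSubgroup hZ hf h0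
  have h1 : w = fun _ => w 1 := funext fun b => by
    have : w (b⁻¹⁻¹ * 1) = w 1 := congrFun (hfix b⁻¹) 1
    simpa using this
  exact ⟨w 1, fun h => hw0 (by rw [h1, h]; rfl), h1 ▸ hw⟩

theorem finrank_le_card_mul_of_stable [FiniteDimensional K V] (hA : IsPGroup p A)
    (Z : Submodule K (A → V)) (hZ : ∀ a : A, ∀ f ∈ Z, (fun b => f (a⁻¹ * b)) ∈ Z)
    (W : Submodule K V) (hW : ∀ v, (fun _ => v) ∈ Z → v ∈ W) :
    finrank K Z ≤ Fintype.card A * finrank K W := by
  obtain ⟨pr, hpr⟩ := W.subtype.exists_leftInverse_of_injective W.ker_subtype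
  let F : (A → V) →ₗ[K] (A → W) := pr.compLeft A
  have h1 : Function.Injective (F.comp Z.subtype) := by
    rw [← LinearMap.ker_eq_bot, eq_bot_iff]
    intro f hf
    by_contra h0
    obtain ⟨v, hv0, hv, hv'⟩ := exists_const_mem_of_stable hA (Z ⊓ LinearMap.ker F)
      (fun a f hf => ⟨hZ a f hf.1, funext fun b => congrFun hf.2 _⟩) (f := f.1) ⟨f.2, hf⟩
      (fun h => h0 (Subtype.ext h))
    have h2 : pr v = 0 := congrFun hv' 1
    have h3 : pr v = ⟨v, hW v hv⟩ := LinearMap.congr_fun hpr ⟨v, hW v hv⟩
    exact hv0 (congrArg Subtype.val (h3.symm.trans h2))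
  have := LinearMap.finrank_le_finrank_of_injective h1
  rwa [Module.finrank_pi_fintype, Finset.sum_const, smul_eq_mul, Finset.card_univ] at this

theorem card_mul_le_finrank_of_stable [FiniteDimensional K V] (hA : IsPGroup p A)
    (Z : Submodule K (A → V)) (hZ : ∀ a : A, ∀ f ∈ Z, (fun b => f (a⁻¹ * b)) ∈ Z)
    {ι : Type*} [Fintype ι] {v : ι → A → V} (hv : ∀ i, v i ∈ Z)
    (hli : LinearIndependent K fun i => ∑ b, v i b) :
    Fintype.card A * Fintype.card ι ≤ finrank K Z := by
  let Ψ : (A → ι → K) →ₗ[K] (A → V) :=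
    { toFun := fun l => ∑ a, ∑ i, l a i • fun b => v i (a⁻¹ * b)
      map_add' := fun l l' => by simp [add_smul, Finset.sum_add_distrib]
      map_smul' := fun c l => by simp [Finset.smul_sum, mul_smul] }
  have hΨ : ∀ l b, Ψ l b = ∑ a, ∑ i, l a i • v i (a⁻¹ * b) := fun l b => by
    simp [Ψ, Finset.sum_apply]
  have h1 : ∀ l, Ψ l ∈ Z := fun l =>
    Z.sum_mem fun a _ => Z.sum_mem fun i _ => Z.smul_mem _ (hZ a _ (hv i))
  have h2 : Function.Injective (Ψ.codRestrict Z h1) := by
    rw [← LinearMap.ker_eq_bot, LinearMap.ker_codRestrict, eq_bot_iff]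
    intro l hl
    by_contra h0
    obtain ⟨c, hc0, hc⟩ := exists_const_mem_of_stable hA (LinearMap.ker Ψ) (fun a f hf => by
      funext b
      have := congrFun hf (a⁻¹ * b)
      rw [hΨ] at this ⊢
      refine Eq.trans ?_ this
      exact Fintype.sum_equiv (Equiv.mulLeft a⁻¹) _ _ fun x => by simp [mul_assoc]) hl h0
    have h3 := congrFun hc 1
    rw [hΨ, Finset.sum_comm] at h3
    refine hc0 (funext (Fintype.linearIndependent_iff.1 hli c ?_))
    rw [← (show _ = (0 : V) from h3)]
    refine Finset.sum_congr rfl fun i _ => ?_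
    rw [Finset.smul_sum]
    exact Fintype.sum_equiv (Equiv.inv A) _ _ fun x => by simp
  have := LinearMap.finrank_le_finrank_of_injective h2
  simpa [Module.finrank_pi_fintype] using this

end trans

section ops
variable {Λ : Type*} [CommRing Λ] {A : Type*} [CommGroup A] [Fintype A] {m : Type*} [Fintype m]
  [DecidableEq m]

/-- the commutator with the generic element -/
noncomputable def adGen (ρ : A → Matrix m m Λ) (y : A → Λ) : Module.End Λ (Matrix m m Λ) :=
  ∑ a, y a • (LinearMap.mulLeft Λ (ρ a) - LinearMap.mulRight Λ (ρ a))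

/-- the conjugation action of the generic element -/
noncomputable def conjGen (ρ : A → Matrix m m Λ) (y : A → Λ) : Module.End Λ (Matrix m m Λ) :=
  ∑ a, y a • (LinearMap.mulLeft Λ (ρ a) * LinearMap.mulRight Λ (ρ a⁻¹) - 1)

omit [CommGroup A] in
theorem adGen_apply (ρ : A → Matrix m m Λ) (y : A → Λ) (x : Matrix m m Λ) :
    adGen ρ y x = ∑ a, y a • (ρ a * x - x * ρ a) := by simp [adGen]

theorem conjGen_apply (ρ : A → Matrix m m Λ) (y : A → Λ) (x : Matrix m m Λ) :
    conjGen ρ y x = ∑ a, y a • (ρ a * x * ρ a⁻¹ - x) := by simp [conjGen, mul_assoc]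

omit [CommGroup A] in
theorem map_adGen_pow {Λ' : Type*} [CommRing Λ'] (f : Λ →+* Λ') (ρ : A → Matrix m m Λ) (y : A → Λ)
    (j : ℕ) (x : Matrix m m Λ) : ((adGen ρ y ^ j) x).map f =
      (adGen (fun a => (ρ a).map f) (fun a => f (y a)) ^ j) (x.map f) := by
  induction j with
  | zero => rfl
  | succ j ih =>
    rw [pow_succ', pow_succ', Module.End.mul_apply, Module.End.mul_apply, ← ih, adGen_apply,
      adGen_apply]
    change f.mapMatrix _ = _
    rw [map_sum]
    refine Finset.sum_congr rfl fun a _ => ?_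
    ext i j
    simp [Matrix.mul_apply]

/-- a twisted operator on `A`-graded vectors -/
noncomputable def twistOp {V : Type*} [AddCommGroup V] [Module Λ V] (L : A → Module.End Λ V) :
    Module.End Λ (A → V) :=
  LinearMap.pi fun b => ∑ a, (L a).comp (LinearMap.proj (a⁻¹ * b))

theorem twistOp_apply {V : Type*} [AddCommGroup V] [Module Λ V] (L : A → Module.End Λ V)
    (f : A → V) (b : A) : twistOp L f b = ∑ a, L a (f (a⁻¹ * b)) := by simp [twistOp]

theorem twistOp_pow_trans {V : Type*} [AddCommGroup V] [Module Λ V] (L : A → Module.End Λ V)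
    (j : ℕ) (f : A → V) (c : A) :
    (twistOp L ^ j) (fun b => f (c⁻¹ * b)) = fun b => (twistOp L ^ j) f (c⁻¹ * b) := by
  induction j with
  | zero => rfl
  | succ j ih =>
    funext b
    simp only [pow_succ', Module.End.mul_apply, ih, twistOp_apply, mul_left_comm]

theorem twistOp_pow_const {V : Type*} [AddCommGroup V] [Module Λ V] (L : A → Module.End Λ V)
    (j : ℕ) (v : V) : (twistOp L ^ j) (fun _ => v) = fun _ => ((∑ a, L a) ^ j) v := by
  induction j with
  | zero => rfl
  | succ j ih =>
    funext b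
    simp only [pow_succ', Module.End.mul_apply, ih, twistOp_apply, LinearMap.sum_apply]

theorem coeff_adGen_pow (ρ : A → Matrix m m Λ) (y : A → Λ) (j : ℕ) (x : Matrix m m Λ[A]) :
    (fun b => ((adGen (fun a => (ρ a).map (singleOneRingHom : Λ →+* Λ[A]))
      (fun a => single a (y a)) ^ j) x).map (·.coeff b)) =
    (twistOp (fun a => y a • (LinearMap.mulLeft Λ (ρ a) - LinearMap.mulRight Λ (ρ a))) ^ j)
      (fun b => x.map (·.coeff b)) := by
  induction j with
  | zero => rfl
  | succ j ih =>
    funext b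
    rw [pow_succ', pow_succ', Module.End.mul_apply, Module.End.mul_apply, ← ih, adGen_apply,
      twistOp_apply]
    ext i l
    simp [Matrix.sum_apply, Matrix.mul_apply, coeff_sum, coeff_sub, mul_comm (ρ _ _ _)]

theorem twistOp_ad_conj (ρ : A →* Matrix m m Λ) (y : A → Λ) (j : ℕ) (f : A → Matrix m m Λ) :
    (twistOp (fun a => y a • (LinearMap.mulLeft Λ (ρ a) * LinearMap.mulRight Λ (ρ a⁻¹) - 1)) ^ j)
      (fun b => f b * ρ b⁻¹) = fun b =>
    (twistOp (fun a => y a • (LinearMap.mulLeft Λ (ρ a) - LinearMap.mulRight Λ (ρ a))) ^ j) f b *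
      ρ b⁻¹ := by
  induction j with
  | zero => rfl
  | succ j ih =>
    funext b
    simp only [pow_succ', Module.End.mul_apply, ih, twistOp_apply, Finset.sum_mul]
    refine Finset.sum_congr rfl fun a _ => ?_
    simp [mul_assoc, sub_mul, ← map_mul, mul_comm a]

end ops

section rank
variable {p : ℕ} [hp : Fact p.Prime] {k : Type*} [Field k] [CharP k p] {A : Type*} [CommGroup A]
  [Fintype A] {m : Type*} [Fintype m] [DecidableEq m] {K : Type*} [Field K] [Algebra k K]
  [Algebra (MvPolynomial A k) K] [IsFractionRing (MvPolynomial A k) K]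
  [IsScalarTower k (MvPolynomial A k) K]

theorem finrank_ker_adGen_le (hA : IsPGroup p A) (ρ : A →* Matrix m m k) (j : ℕ) :
    finrank K (LinearMap.ker (adGen (fun a => (ρ a).map (algebraMap k K))
      (fun a => algebraMap (MvPolynomial A k) K (MvPolynomial.X a)) ^ j)) ≤
    finrank K (LinearMap.ker (conjGen (fun a => (ρ a).map (algebraMap k K))
      (fun a => algebraMap (MvPolynomial A k) K (MvPolynomial.X a)) ^ j)) := by
  haveI : CharP K p := charP_of_injective_algebraMap (algebraMap k K).injective p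
  let ρ' : A →* Matrix m m K := (algebraMap k K).mapMatrix.toMonoidHom.comp ρ
  set Y : A → K := fun a => algebraMap (MvPolynomial A k) K (MvPolynomial.X a) with hY
  change finrank K (LinearMap.ker (adGen ρ' Y ^ j)) ≤ finrank K (LinearMap.ker (conjGen ρ' Y ^ j))
  set D := twistOp (fun a => Y a • (LinearMap.mulLeft K (ρ' a) - LinearMap.mulRight K (ρ' a)))
    with hD
  set τ := twistOp (fun a => Y a • (LinearMap.mulLeft K (ρ' a) * LinearMap.mulRight K (ρ' a⁻¹) - 1))
    with hτ
  have hst : ∀ (L : A → Module.End K (Matrix m m K)) (a : A), ∀ f ∈ LinearMap.ker (twistOp L ^ j),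
      (fun b => f (a⁻¹ * b)) ∈ LinearMap.ker (twistOp L ^ j) := fun L a f hf => by
    rw [LinearMap.mem_ker, twistOp_pow_trans, LinearMap.mem_ker.1 hf]
    rfl
  have h1 : ∀ v ∈ LinearMap.ker (adGen ρ' Y ^ j), ∃ w ∈ LinearMap.ker (D ^ j), ∃ c : Kˣ,
      ∑ b, w b = c • v := by
    intro v hv
    obtain ⟨d, hd⟩ := IsLocalization.exist_integer_multiples_of_finite
      (nonZeroDivisors (MvPolynomial A k)) (fun x : m × m => v x.1 x.2)
    choose v' hv' using hd
    let u : Matrix m m (MvPolynomial A k) := Matrix.of fun i l => v' (i, l)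
    have hu : u.map (algebraMap _ K) = algebraMap _ K (d : MvPolynomial A k) • v := by
      ext i l
      simp [u, hv', Algebra.smul_def]
    have hu0 : (adGen (fun a => (ρ a).map MvPolynomial.C) MvPolynomial.X ^ j) u = 0 := by
      apply Matrix.map_injective (IsFractionRing.injective (MvPolynomial A k) K)
      dsimp only
      rw [map_adGen_pow, hu, map_smul, Matrix.map_zero _ (map_zero _)]
      have : (fun a => ((ρ a).map MvPolynomial.C).map (algebraMap (MvPolynomial A k) K)) = ρ' := by
        funext a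
        ext i l
        exact (IsScalarTower.algebraMap_apply k (MvPolynomial A k) K _).symm
      rw [this, LinearMap.mem_ker.1 hv, smul_zero]
    let ψ : MvPolynomial A k →+* K[A] := MvPolynomial.eval₂Hom
      (singleOneRingHom.comp (algebraMap k K)) (fun a => single a (Y a))
    have h2 := congrArg (fun x => x.map ψ) hu0
    rw [map_adGen_pow, Matrix.map_zero _ (map_zero _)] at h2
    have h3 := coeff_adGen_pow ρ' Y j (u.map ψ)
    have h4 : (fun a => ((ρ a).map MvPolynomial.C).map ψ) =
        fun a => (ρ' a).map (singleOneRingHom : K →+* K[A]) := by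
      funext a
      ext i l : 2
      simp [ψ, ρ']
    have h5 : (fun a => ψ (MvPolynomial.X a)) = fun a => single a (Y a) := by
      funext a
      simp [ψ]
    rw [h4, h5] at h2
    rw [h2] at h3
    refine ⟨fun b => (u.map ψ).map (·.coeff b), ?_, Units.mk0 (algebraMap _ K (d : MvPolynomial A k))
      (IsFractionRing.to_map_ne_zero_of_mem_nonZeroDivisors d.2), ?_⟩
    · rw [LinearMap.mem_ker, ← h3]
      ext b i l
      simp
    · rw [Units.smul_def, Units.val_mk0, ← hu]
      have h6 : (augGA K A : K[A] →+* K).comp ψ = algebraMap _ K := by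
        apply MvPolynomial.ringHom_ext
        · intro r
          simp only [ψ, RingHom.comp_apply, MvPolynomial.eval₂Hom_C]
          exact (augGA_single _ _).trans (IsScalarTower.algebraMap_apply k (MvPolynomial A k) K _)
        · intro a
          simp only [ψ, RingHom.comp_apply, MvPolynomial.eval₂Hom_X']
          exact augGA_single _ _
      ext i l
      simp only [Matrix.sum_apply, Matrix.map_apply]
      rw [← h6, ← augGA_eq_sum]
      rfl
  let bs := Module.finBasis K (LinearMap.ker (adGen ρ' Y ^ j))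
  choose w hw c hc using fun i => h1 (bs i).1 (bs i).2
  have h2 := card_mul_le_finrank_of_stable hA _ (hst _) hw (by
    simp only [hc]
    exact (bs.linearIndependent.map' _ (Submodule.ker_subtype _)).units_smul c)
  have h3 := finrank_le_card_mul_of_stable hA _ (hst fun a =>
    Y a • (LinearMap.mulLeft K (ρ' a) * LinearMap.mulRight K (ρ' a⁻¹) - 1))
    (LinearMap.ker (conjGen ρ' Y ^ j)) (fun v hv => by
      rw [LinearMap.mem_ker, twistOp_pow_const] at hv
      exact congrFun hv 1)
  let Φ : (A → Matrix m m K) →ₗ[K] (A → Matrix m m K) :=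
    LinearMap.pi fun b => (LinearMap.mulRight K (ρ' b⁻¹)).comp (LinearMap.proj b)
  have h4 : finrank K (LinearMap.ker (D ^ j)) ≤ finrank K (LinearMap.ker (τ ^ j)) := by
    refine LinearMap.finrank_le_finrank_of_injective (f := Φ.restrict (p := LinearMap.ker (D ^ j))
      (q := LinearMap.ker (τ ^ j)) fun f hf => ?_) fun f g h => ?_
    · rw [LinearMap.mem_ker] at hf ⊢
      change (τ ^ j) (fun b => f b * ρ' b⁻¹) = 0
      rw [hτ, twistOp_ad_conj, hf]
      ext b : 1
      simp
    · refine Subtype.ext (funext fun b => ?_)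
      have h5 : f.1 b * ρ' b⁻¹ = g.1 b * ρ' b⁻¹ := congrFun (congrArg Subtype.val h) b
      have h6 := congrArg (· * ρ' b) h5
      simpa [mul_assoc, ← map_mul] using h6
  rw [Fintype.card_fin] at h2
  exact Nat.le_of_mul_le_mul_left (h2.trans (h4.trans h3)) Fintype.card_pos

end rank

end Cfsg
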