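import Cfsg.Agent.Blk.AlgBlock2

/-! Generic elements of the augmentation ideal of an elementary abelian `p`-group act freely on
permutation modules without fixed points. -/

set_option autoImplicit false

namespace Cfsg

open Module Nat

theorem sum_pow_prime_of_commute {R : Type*} [Semiring R] {p : ℕ} (hp : p.Prime)
    (h0 : (p : R) = 0) {ι : Type*} (s : Finset ι) (f : ι → R) (hc : ∀ i j, Commute (f i) (f j)) :
    (∑ i ∈ s, f i) ^ p = ∑ i ∈ s, f i ^ p := by
  classical
  induction s using Finset.induction_on with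
  | empty => simp [hp.ne_zero]
  | insert i s hi ih =>
    rw [Finset.sum_insert hi, Finset.sum_insert hi, ← ih]
    obtain ⟨r, hr⟩ := (Commute.sum_right s f (f i) fun j _ => hc i j).exists_add_pow_prime_eq hp
    rw [hr, h0]
    simp

theorem sub_pow_prime_of_commute {R : Type*} [Ring R] {p : ℕ} (hp : p.Prime)
    (h0 : (p : R) = 0) {x y : R} (hc : Commute x y) : (x - y) ^ p = x ^ p - y ^ p := by
  obtain ⟨r, hr⟩ := (hc.sub_left (Commute.refl y)).exists_add_pow_prime_eq hp
  rw [h0, sub_add_cancel] at hr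
  simp [hr]

theorem weyl_pow {K V : Type*} [Field K] [AddCommGroup V] [Module K V] {τ D P : Module.End K V}
    (h : τ * D = D * τ - P) (hPD : P * D = D * P) {v : V} (hP : P v = v) (hv : τ v = 0) (j : ℕ) :
    (τ ^ j) ((D ^ j) v) = ((-1) ^ j * (j ! : K)) • v := by
  have h1 : ∀ j : ℕ, P ((D ^ j) v) = (D ^ j) v := fun j => by
    rw [← Module.End.mul_apply, ((show Commute P D from hPD).pow_right j).eq,
      Module.End.mul_apply, hP]
  have h2 : ∀ j : ℕ, τ ((D ^ (j + 1)) v) = (-((j : K) + 1)) • (D ^ j) v := by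
    intro j
    induction j with
    | zero =>
      rw [zero_add, pow_one, ← Module.End.mul_apply, h]
      simp [hv, hP]
    | succ j ih =>
      rw [_root_.pow_succ' D (j + 1), Module.End.mul_apply, ← Module.End.mul_apply τ, h,
        LinearMap.sub_apply, Module.End.mul_apply, ih, h1, map_smul, ← Module.End.mul_apply D,
        ← _root_.pow_succ']
      push_cast
      module
  induction j with
  | zero => simp
  | succ j ih =>
    rw [pow_succ τ, Module.End.mul_apply, h2, map_smul, ih, smul_smul, Nat.factorial_succ]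
    congr 1
    push_cast
    ring

theorem exists_addMonoidHom_ne_zero (K : Type*) [Field K] {V : Type*} [AddCommGroup V]
    [Module K V] {v : V} (hv : v ≠ 0) : ∃ f : V →+ K, f v ≠ 0 := by
  obtain ⟨f, hf, -⟩ := Submodule.exists_le_ker_of_notMem (K := K) (p := ⊥) (v := v)
    (by simpa using hv)
  exact ⟨f.toAddMonoidHom, hf⟩

theorem exists_addHom_zmod {p : ℕ} [hp : Fact p.Prime] {A : Type*} [CommGroup A]
    (hA : ∀ a : A, a ^ p = 1) {Q : Subgroup A} (hQ : Q ≠ ⊤) :
    ∃ f : A → ZMod p, (∀ a b, f (a * b) = f a + f b) ∧ (∀ a ∈ Q, f a = 0) ∧ ∃ a, f a ≠ 0 := by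
  obtain ⟨a, ha⟩ : ∃ a, a ∉ Q := by
    by_contra h
    push Not at h
    exact hQ (eq_top_iff.2 fun a _ => h a)
  letI : Module (ZMod p) (Additive (A ⧸ Q)) := AddCommGroup.zmodModule (fun x => by
    obtain ⟨x, rfl⟩ := Additive.ofMul.surjective x
    obtain ⟨x, rfl⟩ := QuotientGroup.mk_surjective x
    rw [← ofMul_pow, ← QuotientGroup.mk_pow, hA]
    rfl)
  have h1 : (Additive.ofMul (a : A ⧸ Q)) ≠ 0 := fun h => ha ((QuotientGroup.eq_one_iff a).1 h)
  obtain ⟨f, hf⟩ := exists_addMonoidHom_ne_zero (ZMod p) h1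
  refine ⟨fun b => f (Additive.ofMul (b : A ⧸ Q)), fun b c => ?_, fun b hb => ?_, a, ?_⟩
  · simp only [QuotientGroup.mk_mul, ofMul_mul, map_add]
  · simp only [(QuotientGroup.eq_one_iff b).2 hb, ofMul_one, map_zero]
  · exact hf

/-- a height function on an `A`-set -/
theorem exists_height_fun {p : ℕ} [hp : Fact p.Prime] {A : Type*} [CommGroup A]
    (hA : ∀ a : A, a ^ p = 1) (X : Type*) [MulAction A X] :
    ∃ (h : X → ZMod p) (f : X → A → ZMod p), (∀ (a : A) x, h (a • x) = h x + f x a) ∧
      (∀ (a : A) x, f (a • x) = f x) ∧ ∀ x, (¬ ∀ a : A, a • x = x) ↔ f x ≠ 0 := by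
  classical
  have h1 : ∀ x : X, ∃ f : A → ZMod p, (∀ a b, f (a * b) = f a + f b) ∧
      (∀ a ∈ MulAction.stabilizer A x, f a = 0) ∧ ((¬ ∀ a : A, a • x = x) → ∃ a, f a ≠ 0) := by
    intro x
    by_cases hx : ∀ a : A, a • x = x
    · exact ⟨0, by simp, by simp, fun h => (h hx).elim⟩
    · obtain ⟨f, h1, h2, h3⟩ := exists_addHom_zmod hA (Q := MulAction.stabilizer A x)
        (fun h => hx fun a => (h ▸ Subgroup.mem_top a : a ∈ MulAction.stabilizer A x))
      exact ⟨f, h1, h2, fun _ => h3⟩
  choose f hf1 hf2 hf3 using h1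
  let o : X → X := fun x => (Quotient.mk (MulAction.orbitRel A X) x).out
  have ho : ∀ x, ∃ a : A, a • o x = x := fun x =>
    MulAction.mem_orbit_iff.1 (MulAction.orbitRel_apply.1
      ((MulAction.orbitRel A X).symm
        (Quotient.exact (Quotient.out_eq (Quotient.mk (MulAction.orbitRel A X) x)))))
  have ho' : ∀ (a : A) x, o (a • x) = o x := fun a x => by
    simp only [o]
    rw [Quotient.sound (s := MulAction.orbitRel A X)
      (MulAction.orbitRel_apply.2 (MulAction.mem_orbit x a))]
  choose s hs using ho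
  refine ⟨fun x => f (o x) (s x), fun x => f (o x), fun a x => ?_, fun a x => by simp only [ho'],
    fun x => ⟨fun hx h => ?_, fun hx h => hx ?_⟩⟩
  · have h2 : (a * s x)⁻¹ * s (a • x) ∈ MulAction.stabilizer A (o x) := by
      rw [MulAction.mem_stabilizer_iff, mul_smul, inv_smul_eq_iff, mul_smul, hs, ← ho' a x, hs]
    have h3 := hf1 (o x) (a * s x) ((a * s x)⁻¹ * s (a • x))
    rw [mul_inv_cancel_left, hf2 _ _ h2, add_zero, hf1] at h3
    simp only [ho', h3, add_comm]
  · obtain ⟨a, ha⟩ := hf3 (o x) fun h => hx fun a => by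
      have := h (s x)
      rw [hs] at this
      rw [this, h]
    exact ha (congrFun h a)
  · funext a
    refine hf2 _ _ ?_
    have h2 : o x = x := by
      have := hs x
      rw [← inv_smul_eq_iff.2 this.symm, h]
    rw [h2]
    exact h a

section perm
variable (K : Type*) [Field K] {A : Type*} [CommGroup A] {X : Type*} [MulAction A X]

/-- the permutation operator -/
def permOp (a : A) : Module.End K (X → K) := LinearMap.funLeft K K (fun x => a⁻¹ • x)

variable {K}
@[simp] theorem permOp_apply (a : A) (v : X → K) (x : X) : permOp K a v x = v (a⁻¹ • x) := rfl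

theorem permOp_pow (a : A) (n : ℕ) : (permOp K a : Module.End K (X → K)) ^ n = permOp K (a ^ n) := by
  induction n with
  | zero => ext v x; simp
  | succ n ih => rw [pow_succ, ih]; ext v x; simp [_root_.pow_succ, mul_smul]

variable [Fintype A]

/-- the action of the generic element on a permutation module -/
noncomputable def permTau (X : Type*) [MulAction A X] (y : A → K) : Module.End K (X → K) :=
  ∑ a, y a • (permOp K a - 1)

theorem permTau_apply (y : A → K) (v : X → K) (x : X) :
    permTau X y v x = ∑ a, y a * (v (a⁻¹ • x) - v x) := by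
  simp [permTau, Finset.sum_apply]

theorem exists_permTau_pow {p : ℕ} [hp : Fact p.Prime] {k : Type*} [Field k] [CharP k p]
    [Algebra k K] (hA : ∀ a : A, a ^ p = 1) {y : A → K} (hy : LinearIndependent k y)
    {v : X → K} (hv : permTau X y v = 0) :
    ∃ w, ∀ x, (¬ ∀ a : A, a • x = x) → v x = (permTau X y ^ (p - 1)) w x := by
  classical
  haveI : CharP K p := charP_of_injective_algebraMap (algebraMap k K).injective p
  obtain ⟨h, f, hh, hf, hfix⟩ := exists_height_fun hA X
  let ι : ZMod p →+* K := ZMod.castHom dvd_rfl K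
  let d : (X → K) →ₐ[K] Module.End K (X → K) := Algebra.lmul K (X → K)
  have hd : ∀ u v x, d u v x = u x * v x := fun _ _ _ => rfl
  let s : X → K := fun x => ∑ a, y a * ι (f x a)
  have hs : ∀ x, (¬ ∀ a : A, a • x = x) ↔ s x ≠ 0 := fun x => by
    rw [hfix]
    refine not_congr ⟨fun h => by simp [s, h], fun h => funext fun a => ?_⟩
    have h1 := Fintype.linearIndependent_iff.1 hy (fun a => ZMod.castHom dvd_rfl k (f x a)) (by
      rw [← h]
      refine Finset.sum_congr rfl fun a _ => ?_
      rw [Algebra.smul_def, mul_comm]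
      congr 1
      exact DFunLike.congr_fun (Subsingleton.elim ((algebraMap k K).comp _) ι) _) a
    exact (ZMod.castHom dvd_rfl k).injective (h1.trans (map_zero _).symm)
  have hsa : ∀ (a : A) x, s (a • x) = s x := fun a x => by simp only [s, hf]
  have hcomm : ∀ u : X → K, (∀ (a : A) x, u (a • x) = u x) → ∀ a : A,
      Commute (d u) (permOp K a) := fun u hu a => by
    ext v x
    simp [hd, hu]
  have hcp : ∀ a b : A, Commute (permOp K a : Module.End K (X → K)) (permOp K b) := fun a b => by
    ext v x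
    simp [smul_smul, mul_comm]
  have hcτ : ∀ u : Module.End K (X → K), (∀ a : A, Commute u (permOp K a)) →
      Commute u (permTau X y) := fun u hu =>
    Commute.sum_right _ _ _ fun a _ => ((hu a).sub_right (Commute.one_right _)).smul_right _
  let w : Module.End K (X → K) := ∑ a, d (fun x => y a * ι (f x a)) * permOp K a
  have hdf : ∀ a b : A, Commute (d (fun x => y a * ι (f x a))) (permOp K b) := fun a b =>
    hcomm _ (fun c x => by simp only [hf]) b
  have hdd : ∀ u u', Commute (d u) (d u') := fun u u' => (Commute.all u u').map d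
  have hw : w ^ p = d (s ^ p) := by
    rw [sum_pow_prime_of_commute hp.out (by
      rw [← map_natCast (algebraMap K _), CharP.cast_eq_zero, map_zero])]
    · have : s = ∑ a, fun x => y a * ι (f x a) := by ext x; simp [s]
      rw [this, sum_pow_prime_of_commute hp.out (by ext; simp) _ _ fun _ _ => Commute.all _ _,
        map_sum]
      refine Finset.sum_congr rfl fun a _ => ?_
      rw [(hdf a a).mul_pow, permOp_pow, hA, map_pow,
        show (permOp K (1 : A) : Module.End K (X → K)) = 1 by ext v x; simp, mul_one]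
    · intro a b
      exact ((hdd _ _).mul_right (hdf a b)).mul_left ((hdf b a).symm.mul_right (hcp a b))
  have hwp : ∀ a : A, Commute w (permOp K a) := fun a =>
    Commute.sum_left _ _ _ fun b _ => (hdf b a).mul_left (hcp b a)
  have hwd : ∀ u : X → K, (∀ (a : A) x, u (a • x) = u x) → Commute w (d u) := fun u hu =>
    Commute.sum_left _ _ _ fun b _ => (hdd _ _).mul_left (hcomm u hu b).symm
  let P := d (fun x => (s x ^ p)⁻¹ * s x ^ p)
  let w' := d (fun x => (s x ^ p)⁻¹) * w ^ (p - 1)
  have hww : w' * w = P := by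
    rw [mul_assoc, ← pow_succ, Nat.sub_add_cancel hp.out.one_le, hw, ← map_mul]
    rfl
  have hw'τ : Commute w' (permTau X y) := hcτ _ fun a =>
    (hcomm _ (fun c x => by simp only [hsa]) a).mul_left ((hwp a).pow_left _)
  let D := d (fun x => ι (h x))
  have h1 : permTau X y * D = D * permTau X y - w := by
    ext v x
    simp only [Module.End.mul_apply, LinearMap.sub_apply, Pi.sub_apply, D, hd,
      permTau_apply, w, LinearMap.sum_apply, Finset.sum_apply, permOp_apply, Finset.mul_sum,
      ← Finset.sum_sub_distrib]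
    refine Finset.sum_congr rfl fun a _ => ?_
    have := hh a (a⁻¹ • x)
    rw [smul_inv_smul, hf] at this
    rw [this, map_add]
    ring
  have h2 : permTau X y * (w' * D) = w' * D * permTau X y - P := by
    rw [← mul_assoc, ← hw'τ.eq, mul_assoc, h1, mul_sub, hww, ← mul_assoc]
  have hPa : ∀ (a : A) x, (s (a • x) ^ p)⁻¹ * s (a • x) ^ p = (s x ^ p)⁻¹ * s x ^ p :=
    fun a x => by rw [hsa]
  have h3 : P * (w' * D) = w' * D * P :=
    (((hdd _ _).mul_right ((hwd _ hPa).symm.pow_right _)).mul_right (hdd _ _)).eq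
  have h4 : P (P v) = P v := by
    ext x
    simp only [P, hd]
    by_cases hx : s x = 0
    · simp [hx, hp.out.ne_zero]
    · rw [inv_mul_cancel₀ (pow_ne_zero _ hx), one_mul]
  have h5 : permTau X y (P v) = 0 := by
    rw [← Module.End.mul_apply, ← (hcτ P (hcomm _ hPa)).eq, Module.End.mul_apply, hv, map_zero]
  have h6 := weyl_pow h2 h3 h4 h5 (p - 1)
  have h7 : ((-1) ^ (p - 1) * ((p - 1)! : K)) ≠ 0 := mul_ne_zero (pow_ne_zero _ (by simp)) (by
    rw [Ne, CharP.cast_eq_zero_iff K p, hp.out.dvd_factorial]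
    have := hp.out.pos
    omega)
  refine ⟨((-1) ^ (p - 1) * ((p - 1)! : K))⁻¹ • ((w' * D) ^ (p - 1)) (P v), fun x hx => ?_⟩
  rw [map_smul, h6, smul_smul, inv_mul_cancel₀ h7, one_smul]
  simp only [P, hd]
  rw [inv_mul_cancel₀ (pow_ne_zero _ ((hs x).1 hx)), one_mul]

end perm

end Cfsg
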