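import Cfsg.Agent.Mod.Lift
import Cfsg.Agent.Mod.Points
import Cfsg.Agent.CT.ClassSum

/-! The character of the projective cover of the trivial module. -/

set_option autoImplicit false
set_option linter.style.haveILetI false

namespace Cfsg

open scoped ComplexConjugate MonoidAlgebra

universe u

variable {G : Type u} [Group G] [Finite G] {p : ℕ} {M : Ideal AlgInt}

/-- an idempotent of `O[G]` has class sums zero on `p`-singular classes -/
theorem IsPModular.sum_coeff_conj_eq_zero_valO [Fintype G] (hM : IsPModular p M) {E : (valO M)[G]}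
    (hE : IsIdempotentElem E) {g : G} (hg : p ∣ orderOf g) :
    ∑ x : G, (toC M G E).coeff (x * g * x⁻¹) = 0 := by
  classical
  obtain ⟨ζ, hζp, hζ1, hζ⟩ := hM.exists_root_ne_one
  have hσ : ∀ (k : ℤ) (x : G), ((Equiv.mulRight g) ^ k) x = x * g ^ k := fun k x => by
    rw [Equiv.zpow_mulRight]; rfl
  have key := (isIdealPair_valO M).sum_idempotent_matrix_eq_zero hM.prime.ne_zero hζp hζ1
    (mem_nonunits_valO_iff.2 hζ) (Equiv.mulRight g) ?_
    (Matrix.of fun x y : G => (toC M G E).coeff (x * y⁻¹)) ?_ ?_ ?_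
  · simpa using key
  · intro x k hk
    rw [hσ, mul_eq_left] at hk
    exact (Int.natCast_dvd_natCast.2 hg).trans (orderOf_dvd_iff_zpow_eq_one.2 hk)
  · ext x y
    have h1 := congrArg (fun a : ℂ[G] => a.coeff (x * y⁻¹)) (hE.map (toC M G)).eq
    simp only [ga_coeff_mul] at h1
    simp only [Matrix.mul_apply, Matrix.of_apply]
    rw [← h1]
    refine Fintype.sum_equiv ((Equiv.inv G).trans (Equiv.mulLeft x)) _ _ fun z => ?_
    simp [mul_assoc]
  · intro x y
    simp only [Matrix.of_apply, coeff_toC]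
    exact (E.coeff _).2
  · intro x y
    simp [mul_assoc]

/-- the character of `O[G] E` vanishes on `p`-singular elements -/
theorem IsPModular.sum_charAlg_mul_conj_eq_zero (hM : IsPModular p M) {E : (valO M)[G]}
    (hE : IsIdempotentElem E) {g : G} (hg : p ∣ orderOf g) :
    ∑ χ : IrrCharacter G, charAlg χ.1 (toC M G E) * conj (χ.1 g) = 0 := by
  classical
  haveI := Fintype.ofFinite G
  rw [← hM.sum_coeff_conj_eq_zero_valO hE hg, sum_conj_eq_card_centralizer_mul, Finset.sum_filter,
    Finset.mul_sum]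
  simp_rw [charAlg_eq_sum, Finset.sum_mul, mul_assoc]
  rw [Finset.sum_comm]
  refine Finset.sum_congr rfl fun h _ => ?_
  rw [← Finset.mul_sum, sum_irr_mul_conj]
  by_cases hc : IsConj g h
  · rw [if_pos hc, if_pos hc.symm, mul_comm]
    congr 2
    refine Nat.eq_of_mul_eq_mul_right (Nat.pos_of_ne_zero Subgroup.index_ne_zero_of_finite :
      0 < (Subgroup.centralizer ({g} : Set G)).index) ?_
    rw [Subgroup.card_mul_index, index_centralizer_eq_of_isConj hc, Subgroup.card_mul_index]
  · rw [if_neg hc, if_neg fun h => hc h.symm, mul_zero, mul_zero]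

theorem IsCharacter.exists_tau_one_eq {χ : G → ℂ} (hχ : IsCharacter G χ) {e : (resK M)[G]}
    (hee : IsIdempotentElem e) : ∃ n : ℕ, Cfsg.tau M χ 1 e = n := by
  have h := hχ.tau (M := M) (H := ⊥) (fun h hh => by
    rw [Subgroup.mem_bot.1 hh, gaConj_one]) hee
  exact ⟨_, h.one_eq_charDegree⟩

theorem isFixedGA_zpowers_one_pc {R : Type*} [CommRing R] (a : R[G]) :
    IsFixedGA (Subgroup.zpowers (1 : G)) a := fun h hh => by
  rw [Subgroup.zpowers_one_eq_bot, Subgroup.mem_bot] at hh
  rw [hh, gaConj_one]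

/-- the projective indecomposable character `Φ₁`: it vanishes on `p`-singular elements and is
contained in `1_H^G` for each `p'`-subgroup `H` -/
theorem exists_projCover_triv (hp : p.Prime) : ∃ d : IrrCharacter G → ℕ,
    d (IrrCharacter.triv G) = 1 ∧
    (∀ g : G, p ∣ orderOf g → ∑ χ : IrrCharacter G, (d χ : ℂ) * χ.1 g = 0) ∧
    ∀ (H : Subgroup G) [Fintype H], ¬ p ∣ Nat.card H → ∀ (χ : IrrCharacter G) (m : ℕ),
      classInner (fun h : H => χ.1 h) (fun _ => 1) = m → d χ ≤ m := by
  classical
  haveI := Fintype.ofFinite G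
  obtain ⟨M, hM⟩ := exists_isPModular hp
  haveI := hM.charP
  obtain ⟨i, hi, -, -, hi0⟩ := exists_primIdem_map_ne_zero (⊤ : Subalgebra (resK M) (resK M)[G])
    (e := 1) trivial IsIdempotentElem.one (augGA (resK M) G).toAddMonoidHom (by simp)
  choose d hd using fun χ : IrrCharacter G => χ.isCharacter.exists_tau_one_eq (M := M) hi.idem
  obtain ⟨E, hE, hEE, rfl⟩ := (isFixedGA_zpowers_one_pc i).exists_idem_lift hi.idem
  have hdE : ∀ χ : IrrCharacter G, (d χ : ℂ) = charAlg χ.1 (toC M G E) := fun χ => by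
    rw [← hd, tau_toK χ.isClassFunction hE hEE, ← MonoidAlgebra.one_def, one_mul]
  refine ⟨d, ?_, fun g hg => ?_, fun H _ hH χ m hm => ?_⟩
  · have h1 : (d (IrrCharacter.triv G) : ℂ) = augGA ℂ G (toC M G E) := by
      rw [hdE, charAlg_eq_sum, augGA_eq_sum]
      simp [IrrCharacter.triv]
    rcases IsIdempotentElem.iff_eq_zero_or_one.1 ((hEE.map (toC M G)).map (augGA ℂ G)) with h | h
    · refine absurd ?_ hi0
      change augGA (resK M) G (toK M G E) = 0
      rw [augGA_eq_sum] at h ⊢
      simp_rw [coeff_toK]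
      rw [← red_sum _ fun g _ => (E.coeff g).2]
      simp_rw [coeff_toC] at h
      rw [h, red_zero]
    · exact_mod_cast h1.trans h
  · have := hM.sum_charAlg_mul_conj_eq_zero hEE (g := g⁻¹) (by rwa [orderOf_inv])
    simpa only [← hdE, ← IrrCharacter.apply_inv, inv_inv] using this
  · have hH0 : (Nat.card H : ℂ) ≠ 0 := Nat.cast_ne_zero.2 Nat.card_pos.ne'
    let c : valO M := ⟨_, hM.inv_natCast_mem hH⟩
    let F : (valO M)[G] := gaOfFun fun g => if g ∈ H then c else 0
    have hFc : ∀ g, (toC M G F).coeff g = if g ∈ H then (Nat.card H : ℂ)⁻¹ else 0 := fun g => by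
      rw [coeff_toC, coeff_gaOfFun]
      split_ifs <;> rfl
    have hsum : ∀ f : G → ℂ, ∑ g : G, (toC M G F).coeff g * f g =
        (Nat.card H : ℂ)⁻¹ * ∑ h : H, f h := fun f => by
      simp_rw [hFc, ite_mul, zero_mul]
      rw [← Finset.sum_filter, Finset.mul_sum,
        Finset.sum_subtype (p := (· ∈ H)) _ (by simp)]
    have hFF : IsIdempotentElem F := toC_injective (ga_ext fun x => by
      rw [map_mul, ga_coeff_mul, hsum]
      simp_rw [hFc]
      have : ∀ h : H, ((h : G)⁻¹ * x ∈ H) = (x ∈ H) := fun h =>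
        propext (H.mul_mem_cancel_left (H.inv_mem h.2))
      simp_rw [this]
      rw [Finset.sum_const, Finset.card_univ, Fintype.card_eq_nat_card, nsmul_eq_mul,
        inv_mul_cancel_left₀ hH0])
    have hFa : augGA (resK M) G (toK M G F) ≠ 0 := by
      rw [augGA_eq_sum]
      simp_rw [coeff_toK]
      rw [← red_sum _ fun g _ => (F.coeff g).2]
      have := hsum fun _ => 1
      simp_rw [mul_one, coeff_toC] at this
      rw [this, Finset.sum_const, Finset.card_univ, Fintype.card_eq_nat_card, nsmul_eq_mul, mul_one,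
        inv_mul_cancel₀ hH0, red_one]
      exact one_ne_zero
    obtain ⟨j, hj, hj1, hj2, hj0⟩ := exists_primIdem_map_ne_zero
      (⊤ : Subalgebra (resK M) (resK M)[G]) (e := toK M G F) trivial (hFF.map _)
      (augGA (resK M) G).toAddMonoidHom hFa
    obtain ⟨a, -, b, -, hab, hba⟩ := hi.idemEquiv_of_not_isNilpotent hj (a := 1) (b := 1) trivial
      trivial fun h => by
        have := (h.map (augGA (resK M) G)).eq_zero
        simp only [mul_one, map_mul, mul_eq_zero] at this
        rcases this with (h | h) | h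
        exacts [hi0 h, hj0 h, hi0 h]
    have h1 := tau_eq_of_equiv (M := M) χ.isClassFunction (isFixedGA_zpowers_one_pc a)
      (isFixedGA_zpowers_one_pc b) (hab ▸ hi.idem) (hba ▸ hj.idem)
    have hsub : IsIdempotentElem (toK M G F - j) := by
      rw [IsIdempotentElem, sub_mul, mul_sub, mul_sub, (hFF.map _).eq, hj1, hj2, hj.idem.eq,
        sub_self, sub_zero]
    obtain ⟨n, hn⟩ := χ.isCharacter.exists_tau_one_eq (M := M) hsub
    have h2 := tau_add (M := M) χ.isClassFunction (isFixedGA_zpowers_one_pc j)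
      (isFixedGA_zpowers_one_pc _) hj.idem hsub (by rw [mul_sub, hj2, hj.idem.eq, sub_self])
      (by rw [sub_mul, hj1, hj.idem.eq, sub_self])
    rw [add_sub_cancel, ← hba, ← h1, hab, hd, hba, hn,
      tau_toK χ.isClassFunction (isFixedGA_zpowers_one_pc F) hFF, ← MonoidAlgebra.one_def, one_mul,
      charAlg_eq_sum, hsum] at h2
    rw [classInner_def] at hm
    simp only [map_one, mul_one] at hm
    rw [hm] at h2
    have : m = d χ + n := by exact_mod_cast h2
    omega

end Cfsg
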