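import Cfsg.Agent.Lin.RedTools
import Cfsg.Agent.Lin.Green
import Cfsg.Agent.Mod.SmallPsl
import Cfsg.Agent.CT.Forms
import Cfsg.Agent.Blk.PrinTwo
import Cfsg.Agent.Blk.PrinBrauer
import Cfsg.Agent.Lin.Frame

/-! Real irreducible characters of degree `p + 1` of groups with a self-centralizing Sylow
subgroup of order `p`. -/

set_option autoImplicit false

namespace Cfsg

open Module Polynomial

universe u v w

section lin
variable {F : Type v} [Field F] {V : Type w} [AddCommGroup V] [Module F V]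

/-- a graded module `J_p ⊕ J_1` -/
structure TwoStr (x H : Module.End F V) (p : ℕ) (j a b : F) (y₁ y₀ : V) : Prop where
  semi : H * x = j • (x * H)
  nil : (x ^ p) y₁ = 0
  kill : x y₀ = 0
  eig₁ : H y₁ = a • y₁
  eig₀ : H y₀ = b • y₀
  ne : (x ^ (p - 1)) y₁ ≠ 0
  span : ∀ v, ∃ (g : F[X]) (c : F), v = aeval x g y₁ + c • y₀
  trace : ∀ k, LinearMap.trace F V (H ^ k) = b ^ k + ∑ i ∈ Finset.range p, (a * j ^ i) ^ k
  det : LinearMap.det H = b * ∏ i ∈ Finset.range p, (a * j ^ i)

theorem toMatrix_eq_diagonal_of_eigen {ι : Type*} [Fintype ι] [DecidableEq ι] (β : Basis ι F V)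
    {H : Module.End F V} {w : ι → F} (h : ∀ i, H (β i) = w i • β i) :
    LinearMap.toMatrix β β H = Matrix.diagonal w := by
  ext i k
  rw [LinearMap.toMatrix_apply, h, map_smul, Basis.repr_self, Matrix.diagonal_apply]
  by_cases hik : i = k
  · subst hik
    simp
  · simp [hik]

theorem IsStrings.exists_twoStr {x H : Module.End F V} {p f : ℕ} (hp : 2 ≤ p) {j : F}
    (hHx : H * x = j • (x * H)) {s : Option (Fin f) → ℕ} {wt : Option (Fin f) → F}
    {y : Option (Fin f) → V} (S : IsStrings x H s wt y) (hs : ∀ i, s (some i) = p)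
    (hs0 : s none < p) (hV : finrank F V = p + 1) :
    ∃ i, TwoStr x H p j (wt (some i)) (wt none) (y (some i)) (y none) := by
  classical
  have h1 := S.finrank_eq
  rw [hV, Fintype.sum_option, Finset.sum_congr rfl fun i _ => hs i, Finset.sum_const,
    Finset.card_univ, Fintype.card_fin, smul_eq_mul] at h1
  have hf : f = 1 := by
    rcases f with _ | _ | f
    · omega
    · rfl
    · nlinarith
  subst hf
  have h2 : s none = 1 := by omega
  have heig : ∀ q : Σ i, Fin (s i), H (S.basis q) = (wt q.1 * j ^ (q.2 : ℕ)) • S.basis q :=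
    fun q => by
      rw [S.basis_apply, apply_pow_of_semiconj hHx, S.eig, map_smul, smul_smul, mul_comm]
  refine ⟨0, hHx, by simpa [hs] using S.nil (some 0), by simpa [h2] using S.nil none,
    S.eig _, S.eig _, ?_, fun v => ?_, fun k => ?_, ?_⟩
  · exact S.indep.ne_zero ⟨some 0, ⟨p - 1, by rw [hs]; omega⟩⟩
  · have hv := S.span (Submodule.mem_top (x := v))
    induction hv using Submodule.span_induction with
    | mem v hv =>
      obtain ⟨⟨_ | i, n⟩, rfl⟩ := hv
      · have : (n : ℕ) = 0 := by have := n.2; omega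
        exact ⟨0, 1, by simp [this]⟩
      · obtain rfl : i = 0 := Subsingleton.elim _ _
        exact ⟨X ^ (n : ℕ), 0, by simp⟩
    | zero => exact ⟨0, 0, by simp⟩
    | add v w _ _ hv hw =>
      obtain ⟨g, c, rfl⟩ := hv
      obtain ⟨g', c', rfl⟩ := hw
      exact ⟨g + g', c + c', by simp [add_smul]; abel⟩
    | smul r v _ hv =>
      obtain ⟨g, c, rfl⟩ := hv
      exact ⟨r • g, r * c, by simp [mul_smul]⟩
  · have hk : ∀ q : Σ i, Fin (s i), (H ^ k) (S.basis q) =
        (wt q.1 * j ^ (q.2 : ℕ)) ^ k • S.basis q := fun q => pow_apply_of_apply_eq_smul (heig q) k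
    rw [LinearMap.trace_eq_matrix_trace F S.basis, toMatrix_eq_diagonal_of_eigen _ hk,
      Matrix.trace_diagonal, Fintype.sum_sigma, Fintype.sum_option, Fin.sum_univ_one]
    rw [Fin.sum_univ_eq_sum_range (fun i => (wt none * j ^ i) ^ k),
      Fin.sum_univ_eq_sum_range (fun i => (wt (some 0) * j ^ i) ^ k), h2, hs]
    simp
  · rw [← LinearMap.det_toMatrix S.basis, toMatrix_eq_diagonal_of_eigen _ heig,
      Matrix.det_diagonal, Fintype.prod_sigma, Fintype.prod_option, Fin.prod_univ_one]
    rw [Fin.prod_univ_eq_prod_range (fun i => (wt none * j ^ i)),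
      Fin.prod_univ_eq_prod_range (fun i => (wt (some 0) * j ^ i)), h2, hs]
    simp

theorem aeval_apply_mem {x : Module.End F V} {K : Submodule F V} (hx : ∀ v ∈ K, x v ∈ K)
    (g : F[X]) {v : V} (hv : v ∈ K) : aeval x g v ∈ K := by
  induction g using Polynomial.induction_on' with
  | add g g' h h' => simpa using K.add_mem h h'
  | monomial n c =>
    rw [aeval_monomial, Module.End.mul_apply, Module.algebraMap_end_apply]
    refine K.smul_mem _ ?_
    induction n with
    | zero => simpa using hv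
    | succ n ih => rw [pow_succ', Module.End.mul_apply]; exact hx _ ih

theorem aeval_apply_of_apply_eq_zero {x : Module.End F V} {v : V} (h : x v = 0) (g : F[X]) :
    aeval x g v = g.eval 0 • v :=
  Module.End.aeval_apply_of_mem_apply_eq_smul (by simpa using h)

namespace TwoStr
variable {x H : Module.End F V} {p : ℕ} {j a b : F} {y₁ y₀ : V} (T : TwoStr x H p j a b y₁ y₀)
include T

theorem eig (i : ℕ) : H ((x ^ i) y₁) = (a * j ^ i) • (x ^ i) y₁ := by
  rw [apply_pow_of_semiconj T.semi, T.eig₁, map_smul, smul_smul, mul_comm]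

theorem pow_kill {i : ℕ} (hi : 0 < i) : (x ^ i) y₀ = 0 := by
  obtain ⟨i, rfl⟩ : ∃ k, i = k + 1 := ⟨i - 1, by omega⟩
  rw [pow_succ, Module.End.mul_apply, T.kill, map_zero]

theorem pow_nil {i : ℕ} (hi : p ≤ i) : (x ^ i) y₁ = 0 := by
  obtain ⟨i, rfl⟩ := Nat.exists_eq_add_of_le' hi
  rw [pow_add, Module.End.mul_apply, T.nil, map_zero]

theorem eq_of_submodule {K : Submodule F V} (hx : ∀ v ∈ K, x v ∈ K) (hH : ∀ v ∈ K, H v ∈ K)
    {c : ℕ} (hc : 2 * c + 1 = p) (hc0 : 0 < c) {v : V} (hv : v ∈ K) (hv0 : (x ^ c) v ≠ 0)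
    (h1 : (x ^ c) y₁ ∉ K) : a * j ^ c = b := by
  obtain ⟨g, d, rfl⟩ := T.span v
  have hg0 : g ≠ 0 := by
    rintro rfl
    simp [T.pow_kill hc0] at hv0
  obtain ⟨g', hg, hg'⟩ := Polynomial.exists_eq_pow_rootMultiplicity_mul_and_not_dvd g hg0 0
  set i := g.rootMultiplicity 0
  simp only [map_zero, sub_zero] at hg hg'
  have hcop : IsCoprime g' (X ^ p) :=
    ((Polynomial.irreducible_X.coprime_iff_not_dvd.2 hg').symm).pow_right
  obtain ⟨A, B, hAB⟩ := hcop
  have key : aeval x A (aeval x g y₁) = (x ^ i) y₁ := by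
    have e : A * g = X ^ i - B * X ^ i * X ^ p := by
      rw [hg]
      linear_combination (X ^ i : F[X]) * hAB
    rw [← Module.End.mul_apply, ← map_mul, e]
    simp [T.nil]
  have hic : i ≤ c := by
    by_contra hlt
    apply hv0
    rw [map_add, map_smul, T.pow_kill hc0, smul_zero, add_zero, hg, mul_comm, map_mul,
      ← Module.End.mul_apply, ← mul_assoc, ← aeval_X_pow (R := F), ← map_mul, mul_comm (X ^ c), map_mul,
      aeval_X_pow, aeval_X_pow, mul_assoc, ← pow_add, Module.End.mul_apply, T.pow_nil (by omega),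
      map_zero]
  have hw : (x ^ i) y₁ + (d * A.eval 0) • y₀ ∈ K := by
    have := aeval_apply_mem hx A hv
    rwa [map_add, key, map_smul, aeval_apply_of_apply_eq_zero T.kill, smul_smul] at this
  have hci : i = c := by
    by_contra hne
    apply h1
    have h2 := aeval_apply_mem hx (X ^ (c - i)) hw
    rwa [aeval_X_pow, map_add, map_smul, T.pow_kill (by omega), smul_zero, add_zero,
      ← Module.End.mul_apply, ← pow_add, Nat.sub_add_cancel hic] at h2
  rw [hci] at hw
  by_contra hne
  apply h1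
  have h2 := K.sub_mem (hH _ hw) (K.smul_mem b hw)
  rw [map_add, map_smul, T.eig, T.eig₀] at h2
  have h3 : (a * j ^ c - b) • (x ^ c) y₁ ∈ K := by
    convert h2 using 1
    module
  exact (K.smul_mem_iff (sub_ne_zero.2 hne)).1 h3

theorem eq_top_of_mem {K : Submodule F V} (hx : ∀ v ∈ K, x v ∈ K) (h1 : y₁ ∈ K) (h0 : y₀ ∈ K) :
    K = ⊤ := by
  rw [eq_top_iff]
  intro v _
  obtain ⟨g, d, rfl⟩ := T.span v
  exact K.add_mem (aeval_apply_mem hx g h1) (K.smul_mem _ h0)

theorem pow_apply_mem {K : Submodule F V} (hx : ∀ v ∈ K, x v ∈ K) {c : ℕ} (hc0 : 0 < c)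
    (h1 : (x ^ c) y₁ ∈ K) (v : V) : (x ^ c) v ∈ K := by
  obtain ⟨g, d, rfl⟩ := T.span v
  rw [map_add, map_smul, T.pow_kill hc0, smul_zero, add_zero, ← Module.End.mul_apply,
    ← aeval_X_pow (R := F), ← map_mul, mul_comm, map_mul, aeval_X_pow, Module.End.mul_apply]
  exact aeval_apply_mem hx g h1

end TwoStr

end lin

section rep
variable {G : Type u} [Group G] [Finite G] {p : ℕ} [hp : Fact p.Prime] {F : Type v} [Field F]
  [CharP F p] {V : Type w} [AddCommGroup V] [Module F V]

omit [CharP F p] in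
theorem pseudoLog_apply_mem {U : Module.End F V} {K : Submodule F V} (hU : ∀ v ∈ K, U v ∈ K)
    {v : V} (hv : v ∈ K) : pseudoLog F p U v ∈ K := by
  unfold pseudoLog
  rw [LinearMap.sum_apply]
  refine K.sum_mem fun i _ => K.smul_mem _ ?_
  have := aeval_apply_mem hU (X ^ i.val) hv
  rwa [aeval_X_pow] at this

theorem index_sylN_eq_of_nil {P : Sylow p G} (hP : Nat.card P = p) (hO : pPrimeCore p G = ⊥)
    (htop : ∀ K : Subgroup G, K.Normal → (P : Subgroup G) ≤ K → K = ⊤)
    (hnn : ¬ (P : Subgroup G).Normal) {u : G} (hu : u ∈ (P : Subgroup G)) (hu1 : u ≠ 1)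
    (ρ : G →* Module.End F V) {g : G} (hg : ρ g ≠ 1) {c : ℕ} (hc : 2 * c < p)
    (hnil : (ρ u - 1) ^ c = 0) : (sylN P).index = p + 1 := by
  have hker : ρ.toHomUnits.ker = ⊥ := by
    refine eq_bot_of_normal_of_not_sylow_le P hP hO fun hle => hg ?_
    have : g ∈ ρ.toHomUnits.ker := by rw [htop _ inferInstance hle]; trivial
    simpa using congrArg Units.val (MonoidHom.mem_ker.1 this)
  have hinj : Function.Injective ρ := by
    intro a b hab
    exact (MonoidHom.ker_eq_bot_iff _).1 hker (Units.ext (by simpa using hab))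
  obtain ⟨_, ρ', H⟩ := SmallMod.exists_zmod (⟨hinj, hP, hu, hu1, hnil, hc⟩ : SmallMod ρ P u c)
  exact H.index_eq hnn

theorem TwoStr.index_sylN_eq {P : Sylow p G} (hP : Nat.card P = p) (hO : pPrimeCore p G = ⊥)
    (htop : ∀ K : Subgroup G, K.Normal → (P : Subgroup G) ≤ K → K = ⊤)
    (hnn : ¬ (P : Subgroup G).Normal) {u h : G} (hu : u ∈ (P : Subgroup G)) (hu1 : u ≠ 1)
    {σ : G →* Module.End F V} {j a b : F} {y₁ y₀ : V}
    (T : TwoStr (pseudoLog F p (σ u)) (σ h) p j a b y₁ y₀) {c : ℕ} (hc : 2 * c + 1 = p)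
    (hj : j ^ c = 1) (hab : a * b = 1) (ha : a ^ 2 ≠ 1) {B : V →ₗ[F] V →ₗ[F] F} (hB0 : B ≠ 0)
    (hB : ∀ g v w, B (σ g v) (σ g w) = B v w) : (sylN P).index = p + 1 := by
  have h2 : p ≠ 2 := by omega
  have hp2 := hp.out.two_le
  have hc0 : 0 < c := by omega
  have hU : σ u ^ p = 1 := by
    rw [← map_pow, orderOf_dvd_iff_pow_eq_one.1 (orderOf_eq_of_card_prime hP hu hu1).dvd, map_one]
  set x := pseudoLog F p (σ u) with hx
  have hker : ∀ v, x v = 0 → σ u v = v := by
    intro v hv
    have h1 : v ∈ LinearMap.ker (x ^ 1) := by simpa using hv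
    rw [hx, ker_pseudoLog_pow h2 hU] at h1
    simpa [sub_eq_zero] using h1
  have hrange : ∀ w, ∃ w', x w = σ u w' - w' := by
    intro w
    have h1 : x w ∈ LinearMap.range (x ^ 1) := ⟨w, by simp⟩
    rw [hx, range_pseudoLog_pow h2 hU] at h1
    obtain ⟨w', hw'⟩ := h1
    exact ⟨w', by simpa using hw'.symm⟩
  have ha1 : a ≠ 1 := fun h => ha (by simp [h])
  have hb1 : b ≠ 1 := fun h => ha1 (by simpa [h] using hab)
  set z := (x ^ (p - 1)) y₁ with hz
  have hxz : x z = 0 := by
    rw [hz, ← Module.End.mul_apply, ← pow_succ', Nat.sub_add_cancel (by omega), T.nil]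
  have hHz : σ h z = a • z := by
    rw [hz, T.eig, show p - 1 = c * 2 by omega, pow_mul, hj]
    simp
  set K := LinearMap.ker B with hK
  have hKG : ∀ g, ∀ v ∈ K, σ g v ∈ K := by
    intro g v hv
    rw [hK, LinearMap.mem_ker] at hv ⊢
    ext w
    have : w = σ g (σ g⁻¹ w) := by
      rw [← Module.End.mul_apply, ← map_mul]
      simp
    rw [this, hB, hv]
    rfl
  have hKx : ∀ v ∈ K, x v ∈ K := fun v hv => pseudoLog_apply_mem (hKG u) hv
  have hzK : z ∈ K := by
    rw [hK, LinearMap.mem_ker]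
    have e0 : B z y₀ = 0 := by
      obtain ⟨w', hw'⟩ := hrange ((x ^ (p - 2)) y₁)
      have : z = x ((x ^ (p - 2)) y₁) := by
        rw [hz, ← Module.End.mul_apply, ← pow_succ']
        congr 2
        omega
      rw [this, hw', map_sub, LinearMap.sub_apply]
      conv_lhs => rw [← hker y₀ T.kill, hB, hker y₀ T.kill]
      exact sub_self _
    have e1 : ∀ w, B z (x w) = 0 := by
      intro w
      obtain ⟨w', hw'⟩ := hrange w
      rw [hw', map_sub]
      conv_lhs => rw [← hker z hxz, hB, hker z hxz]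
      exact sub_self _
    have e2 : B z y₁ = 0 := by
      have := hB h z y₁
      rw [hHz, T.eig₁] at this
      simp only [map_smul, LinearMap.smul_apply, smul_eq_mul] at this
      apply mul_left_cancel₀ (sub_ne_zero.2 ha)
      linear_combination this
    ext w
    obtain ⟨g, d, rfl⟩ := T.span w
    rw [← Polynomial.X_mul_divX_add g]
    simp only [map_add, map_mul, aeval_X, aeval_C, LinearMap.add_apply, Module.End.mul_apply,
      Module.algebraMap_end_apply, map_smul, e0, e1, e2, smul_zero, add_zero, LinearMap.zero_apply]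
  have hKtop : K ≠ ⊤ := fun h => hB0 (LinearMap.ker_eq_top.1 h)
  by_cases h1 : ∀ v ∈ K, (x ^ c) v = 0
  · refine index_sylN_eq_of_nil hP hO htop hnn hu hu1
      (Representation.subrepresentation σ K fun g v hv => hKG g v hv) (g := h) (c := c) ?_
      (by omega) ?_
    · intro h0
      have := congrArg Subtype.val (LinearMap.congr_fun h0 ⟨z, hzK⟩)
      simp only [Representation.subrepresentation_apply, LinearMap.coe_restrict_apply,
        Module.End.one_apply, hHz] at this
      apply T.ne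
      have h3 : (a - 1) • z = 0 := by rw [sub_smul, this, one_smul, sub_self]
      exact (smul_eq_zero.1 h3).resolve_left (sub_ne_zero.2 ha1)
    · have key : ∀ (n : ℕ) (v : K), (((Representation.subrepresentation σ K
          (fun g v hv => hKG g v hv) u - 1) ^ n) v : V) = ((σ u - 1) ^ n) v := by
        intro n
        induction n with
        | zero => simp
        | succ n ih =>
          intro v
          rw [pow_succ, pow_succ, Module.End.mul_apply, Module.End.mul_apply, ih]
          rfl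
      ext v
      have h3 : (v : V) ∈ LinearMap.ker (x ^ c) := h1 v v.2
      rw [hx, ker_pseudoLog_pow h2 hU] at h3
      rw [key]
      exact h3
  by_cases h3 : (x ^ c) y₁ ∈ K
  · refine index_sylN_eq_of_nil hP hO htop hnn hu hu1
      (Representation.quotient σ K fun g v hv => hKG g v hv) (g := h) (c := c) ?_
      (by omega) ?_
    · intro h0
      have key : ∀ v, σ h v - v ∈ K := by
        intro v
        have := LinearMap.congr_fun h0 (K.mkQ v)
        rw [← Submodule.Quotient.eq]
        simpa using this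
      apply hKtop
      refine T.eq_top_of_mem hKx ?_ ?_
      · have := key y₁
        rw [T.eig₁] at this
        refine (K.smul_mem_iff (sub_ne_zero.2 ha1)).1 ?_
        rwa [sub_smul, one_smul]
      · have := key y₀
        rw [T.eig₀] at this
        refine (K.smul_mem_iff (sub_ne_zero.2 hb1)).1 ?_
        rwa [sub_smul, one_smul]
    · have key : ∀ (n : ℕ) (v : V), ((Representation.quotient σ K
          (fun g v hv => hKG g v hv) u - 1) ^ n) (K.mkQ v) = K.mkQ (((σ u - 1) ^ n) v) := by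
        intro n
        induction n with
        | zero => simp
        | succ n ih =>
          intro v
          rw [pow_succ, pow_succ, Module.End.mul_apply, Module.End.mul_apply, ← ih]
          rfl
      ext v
      have h4 : ((σ u - 1) ^ c) v ∈ LinearMap.range (x ^ c) := by
        rw [hx, range_pseudoLog_pow h2 hU]
        exact ⟨v, rfl⟩
      obtain ⟨w, hw⟩ := h4
      simp only [LinearMap.comp_apply, key, ← hw]
      simpa using T.pow_apply_mem hKx hc0 h3 w
  exfalso
  push Not at h1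
  obtain ⟨v, hv, hv0⟩ := h1
  have := T.eq_of_submodule hKx (hKG h) hc hc0 hv hv0 h3
  rw [hj, mul_one] at this
  exact ha (by rw [sq, ← hab, this])

end rep

section char
variable {G : Type u} [Group G] [Finite G] {p : ℕ} [hp : Fact p.Prime]

theorem SCP.eq_top_of_le {P : Sylow p G} (H : SCP p P) (hperf : commutator G = ⊤)
    (K : Subgroup G) (hK : K.Normal) (hle : (P : Subgroup G) ≤ K) : K = ⊤ := by
  have h1 := Sylow.normalizer_sup_eq_top' P hle
  have h2 : ∀ g : G, ∃ n ∈ sylN P, (g : G ⧸ K) = n := by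
    intro g
    have : g ∈ ((Subgroup.normalizer ((P : Subgroup G) : Set G) ⊔ K : Subgroup G) : Set G) := by
      have h1' : Subgroup.normalizer ((P : Subgroup G) : Set G) ⊔ K = ⊤ := h1
      rw [h1']
      trivial
    rw [Subgroup.mul_normal] at this
    obtain ⟨n, hn, k, hk, rfl⟩ := this
    exact ⟨n, hn, QuotientGroup.mk_mul_of_mem n hk⟩
  rw [eq_top_iff, ← hperf, commutator_def, Subgroup.commutator_le]
  intro a _ b _
  obtain ⟨n, hn, e1⟩ := h2 a
  obtain ⟨m, hm, e2⟩ := h2 b
  rw [← QuotientGroup.eq_one_iff, commutatorElement_def]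
  simp only [QuotientGroup.mk_mul, QuotientGroup.mk_inv, e1, e2]
  have := (QuotientGroup.eq_one_iff _).2 (hle (H.commutator_mem hn hm))
  simpa using this

omit [Finite G] in
theorem monoidHom_eq_one_of_perfect (hperf : commutator G = ⊤) {A : Type v} [CommMonoid A]
    (f : G →* A) (g : G) : f g = 1 := by
  have h : g ∈ f.toHomUnits.ker :=
    Abelianization.commutator_subset_ker _ (by rw [hperf]; trivial)
  simpa using congrArg Units.val (MonoidHom.mem_ker.1 h)

theorem exists_invariant_form_redRep {M : Ideal AlgInt} {ι : Type v} [Fintype ι] [DecidableEq ι]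
    (X : G →* Matrix ι ι (valO M)) (h : IsIrrCharacter G fun g => ((X g).trace : ℂ))
    (hr : ∀ g, ((X g).trace : ℂ).im = 0) :
    ∃ B : (ι → resK M) →ₗ[resK M] (ι → resK M) →ₗ[resK M] resK M, B ≠ 0 ∧
      ∀ g v w, B (redRep X g v) (redRep X g w) = B v w := by
  obtain ⟨S, hS0, hS⟩ := exists_invariant_form (X := cplxRep X)
    (by simpa only [trace_cplxRep] using h) (by simpa only [trace_cplxRep] using hr)
  have hne : (Finset.univ : Finset (ι × ι)).Nonempty := by
    by_contra h0
    apply hS0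
    ext i k
    exact absurd ⟨(i, k), Finset.mem_univ _⟩ h0
  obtain ⟨q, -, hq⟩ := Finset.exists_max_image Finset.univ
    (fun q : ι × ι => valM M (S q.1 q.2)) hne
  have hq0 : S q.1 q.2 ≠ 0 := by
    intro h0
    apply hS0
    ext i k
    have := hq (i, k) (Finset.mem_univ _)
    simpa [h0] using this
  have hmem : ∀ i k, S i k / S q.1 q.2 ∈ valO M := by
    intro i k
    rw [mem_valO_iff, map_div₀]
    exact div_le_one_of_le₀ (hq (i, k) (Finset.mem_univ _)) zero_le
  set S' : Matrix ι ι (valO M) := Matrix.of fun i k => ⟨_, hmem i k⟩ with hS'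
  have hmap : S'.map (valO M).subtype = (S q.1 q.2)⁻¹ • S := by
    ext i k
    simp [hS', div_eq_inv_mul]
  have hinv : ∀ g, (X g).transpose * S' * X g = S' := by
    intro g
    apply Matrix.map_injective (valO M).subtype_injective
    have := hS g
    simp only [Matrix.map_mul, Matrix.transpose_map, hmap, Matrix.mul_smul, Matrix.smul_mul]
    rw [← cplxRep_apply, this]
  refine ⟨Matrix.toBilin' (S'.map (IsLocalRing.residue (valO M))), ?_, fun g v w => ?_⟩
  · intro h0
    have h1 : S'.map (IsLocalRing.residue (valO M)) = 0 :=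
      (Matrix.toBilin' (R₁ := resK M)).map_eq_zero_iff.1 h0
    have h2 : S' q.1 q.2 = 1 := Subtype.ext (by simp [hS', hq0])
    have := congrFun (congrFun h1 q.1) q.2
    simp [h2] at this
  · have e := congrArg (fun A => A.map (IsLocalRing.residue (valO M))) (hinv g)
    simp only [Matrix.map_mul, Matrix.transpose_map] at e
    simp only [redRep_apply, Matrix.toLin'_apply, Matrix.toBilin'_apply']
    conv_rhs => rw [← e]
    rw [← Matrix.mulVec_mulVec, ← Matrix.mulVec_mulVec, Matrix.dotProduct_mulVec v,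
      Matrix.vecMul_transpose]

theorem geom_sum_char_eq_one {F : Type v} [Field F] {r : F} (h1 : r ≠ 1) (h : r ^ (p - 1) = 1) :
    ∑ i ∈ Finset.range p, r ^ i = 1 := by
  obtain ⟨n, hn⟩ : ∃ n, p = n + 1 := ⟨p - 1, by have := hp.out.pos; omega⟩
  rw [hn, Nat.add_sub_cancel] at h
  rw [hn, Finset.sum_range_succ, geom_sum_eq h1, h]
  simp

theorem IrrCharacter.index_sylN_eq_of_real {P : Sylow p G} (H : SCP p P)
    (hperf : commutator G = ⊤) (hO : pPrimeCore p G = ⊥) (Fr : AutFrame p (P : Subgroup G))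
    (hh : Fr.h ^ Fr.e = 1) (he : 2 < Fr.e) (Θ : IrrCharacter G) (hd : charDegree Θ.1 = p + 1)
    (hr : ∀ g, (Θ.1 g).im = 0) {ζ : ℂ} (hζ : ζ ^ Fr.e = 1) (hζ2 : ζ ^ 2 ≠ 1)
    (h1 : Θ.1 Fr.h = ζ + ζ⁻¹) (h2 : Θ.1 (Fr.h ^ 2) = ζ ^ 2 + ζ⁻¹ ^ 2) :
    (sylN P).index = p + 1 := by
  have hnn : ¬ (P : Subgroup G).Normal := fun h => index_sylN_ne_one_of_perfect hperf P H.card
    (Subgroup.index_eq_one.2 (Subgroup.normalizer_eq_top_iff.2 h))
  have hlt := Fr.e_lt
  have hp2 : p ≠ 2 := by omega
  obtain ⟨c, hc⟩ := hp.out.odd_of_ne_two hp2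
  obtain ⟨M, hM⟩ := exists_isPModular hp.out
  have := hM.charP
  obtain ⟨u, hu, hu1⟩ := exists_ne_one_of_card_prime H.card
  obtain ⟨X, hX, hloc⟩ := Θ.exists_local_lattice M
  have hprim := Fr.primK (resK M)
  obtain ⟨f, s, wt, y, S, hs, hs0, hwt⟩ := exists_isStrings_of_local (redRep X) P H.card hu hu1 hp2
    (γ := 1) (Fr.hconj u hu) (Fr.e_ne_zeroK _) hprim _root_.one_ne_zero
    (by rw [← map_pow, hh]; simp) (fun n hn => by
      obtain ⟨i, -, d, hd, rfl⟩ := Fr.gen n hn
      obtain ⟨a, rfl⟩ := exists_eq_pow_of_card_prime P H.card hu hu1 (H.cen hd)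
      exact ⟨1, i, a, by simp⟩) hloc
  have hU : redRep X u ^ p = 1 := by rw [← map_pow, H.pow_eq_one_of_mem hu, map_one]
  obtain ⟨i, T⟩ := S.exists_twoStr hp.out.two_le (mul_pseudoLog_of_conj hU Fr.not_dvd_j (by
    rw [← map_pow, ← Fr.hconj u hu, ← map_mul, ← map_mul]; simp)) hs hs0 (by simp [hd])
  obtain ⟨B, hB0, hB⟩ := exists_invariant_form_redRep X
    (by simpa only [hX] using Θ.2) (by simpa only [hX] using hr)
  set a := wt (some i)
  set b := wt none
  set j : resK M := (Fr.j : resK M)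
  have hjp : j ^ (p - 1) = 1 := (hprim.pow_eq_one_iff_dvd _).2 Fr.e_dvd
  have htr : ∀ k, ¬ Fr.e ∣ k → red M (Θ.1 (Fr.h ^ k)) = b ^ k + a ^ k := by
    intro k hk
    rw [← hX, ← trace_redRep, map_pow, T.trace]
    congr 1
    have : ∑ i ∈ Finset.range p, (j ^ k) ^ i = 1 :=
      geom_sum_char_eq_one (fun h => hk ((hprim.pow_eq_one_iff_dvd _).1 h))
        (by rw [← pow_mul, mul_comm, pow_mul, hjp, one_pow])
    conv_rhs => rw [← mul_one (a ^ k), ← this, Finset.mul_sum]
    exact Finset.sum_congr rfl fun i _ => by rw [mul_pow, ← pow_mul, ← pow_mul, mul_comm i k]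
  have hv : valM M ζ = 1 := valM_eq_one_of_pow_eq_one (by omega) hζ
  have hζO : ζ ∈ valO M := mem_valO_iff.2 hv.le
  have hζO' : ζ⁻¹ ∈ valO M := inv_mem_valO_of_valM_eq_one hv
  set l := red M ζ with hl
  have hl0 : l ≠ 0 := red_ne_zero_iff.2 hv
  have hl2 : l ^ 2 ≠ 1 := fun h => hζ2 (hM.eq_one_of_red_eq_one Fr.not_dvd_e
    (by rw [← pow_mul, mul_comm, pow_mul, hζ, one_pow]) (by rw [red_pow hζO, h]))
  have e1 := htr 1 (fun h => by have := Nat.le_of_dvd one_pos h; omega)
  have e2 := htr 2 (fun h => by have := Nat.le_of_dvd two_pos h; omega)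
  rw [pow_one, h1, red_add hζO hζO', red_inv hv, pow_one, pow_one] at e1
  rw [h2, red_add (pow_mem hζO _) (pow_mem hζO' _), red_pow hζO, red_pow hζO', red_inv hv] at e2
  have hll : l * l⁻¹ = 1 := mul_inv_cancel₀ hl0
  have hab : a * b = 1 := by
    apply mul_left_cancel₀ (two_ne_zero_of_char (F := resK M) hp2)
    linear_combination e2 - (l + l⁻¹ + a + b) * e1 + 2 * hll
  have ha : a ^ 2 ≠ 1 := by
    intro ha
    apply hl2
    have hb : b = a := by linear_combination a * hab - b * ha
    have h3 : (l - a) ^ 2 = 0 := by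
      rw [hb] at e1
      linear_combination l * e1 - hll + ha
    have h4 : l = a := sub_eq_zero.1 (pow_eq_zero_iff two_ne_zero |>.1 h3)
    rw [h4, ha]
  have hap : a ^ (p - 1) = 1 := by
    obtain ⟨t, ht⟩ := Fr.e_dvd
    rw [ht, pow_mul, hwt, one_pow, one_pow]
  have hj : j ^ c = 1 := by
    have e3 := T.det
    rw [show LinearMap.det (redRep X Fr.h) = 1 from
      monoidHom_eq_one_of_perfect hperf (LinearMap.det.comp (redRep X)) Fr.h,
      Finset.prod_mul_distrib, Finset.prod_const, Finset.card_range, Finset.prod_pow_eq_pow_sum,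
      Finset.sum_range_id] at e3
    have e4 : p * (p - 1) / 2 = (p - 1) * c + c := by
      rw [hc]
      simp only [Nat.add_sub_cancel]
      rw [show (2 * c + 1) * (2 * c) = 2 * (2 * c * c + c) by ring]
      simp
    have e5 : a ^ p = a := by
      conv_lhs => rw [show p = p - 1 + 1 by omega, pow_succ, hap, one_mul]
    rw [e4, pow_add, pow_mul, hjp, one_pow, one_mul, e5, ← mul_assoc, mul_comm b, hab,
      one_mul] at e3
    exact e3.symm
  exact T.index_sylN_eq H.card hO (H.eq_top_of_le hperf) hnn hu hu1 hc.symm hj hab ha hB0 hB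

end char

end Cfsg
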